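import Cfsg.Agent.Go.E0

/-! What Part I of Goldschmidt's theorem needs to know about proper subgroups. -/

set_option autoImplicit false

namespace Cfsg.Agent.Go

open Subgroup Cfsg Cfsg.Agent.H1 Cfsg.Agent.L Cfsg.Agent.FT Cfsg.Agent.Sg Cfsg.Agent.R1
open scoped Pointwise commutatorElement

/-- under `Hyp0` a proper subgroup is balanced, or `A` is a Sylow four-subgroup of a component -/
class Lc : Prop where
  main : ∀ {G : Type} [Group G] [Finite G] [IsSimpleGroup G] {A Y : Subgroup G},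
    IH (Nat.card G) → SC A → Sq A → 4 ≤ #|A| → Hyp0 A → Y ≠ ⊤ → A ≤ Y →
    (∀ a ∈ A, a ≠ 1 → core {2}ᶜ 𝐂[a] ⊓ Y ≤ core {2}ᶜ Y) ∨
      (#|A| = 4 ∧ (∃ ρ ∈ KK A Y ⊓ 𝐍(A), ρ ∉ 𝐂(A)) ∧ ∀ R ≤ Y, IsPGroup 2 R → A ≤ R →
        ∀ r ∈ R, ∃ a ∈ A, ⁅KK A Y, zpowers (a * r)⁆ ≤ core {2}ᶜ Y)

/-- a strongly closed four-group that splits off the Sylow subgroup is the Sylow subgroup -/
class Spl : Prop where
  main : ∀ {G : Type} [Group G] [Finite G] [IsSimpleGroup G] {A S : Subgroup G} {ρ : G},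
    SC A → Sq A → #|A| = 4 → L.IsSylowIn 2 S ⊤ → A ≤ S → S ≤ 𝐂(A) → ρ ∈ 𝐍(A) → ρ ∉ 𝐂(A) →
    (∀ s ∈ S, ∃ a ∈ A, a * s ∈ 𝐂[ρ]) → S ≤ A

end Cfsg.Agent.Go
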