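import Cfsg.Agent.FT.CFDade
import Cfsg.Agent.FT.CFBasic4
import Cfsg.Agent.Sg.Gen

/-! Slice BD of notes/goldschmidt.md: general character theory. -/

set_option autoImplicit false

namespace Cfsg.Agent.Go.BD

open Subgroup Cfsg.Agent.H1 Cfsg.Agent.L Cfsg.Agent.FT Cfsg.Agent.Sg
open scoped Pointwise commutatorElement ComplexConjugate

variable {G : Type*} [Group G] [Finite G] {H T L : Subgroup G} {a t : G} {D : Set G}
  {φ ψ χ μ ν α β α' β' : G → ℂ}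

theorem dot_shift (ht : t ∈ L) {c : ℂ} (c1 : c ≠ 1)
    (h : ∀ x ∈ L, φ (x * t) * conj (ψ (x * t)) = c * (φ x * conj (ψ x))) : dot L φ ψ = 0 := by
  have := Fintype.ofFinite L
  have e : ∑ x : L, φ x * conj (ψ x) = c * ∑ x : L, φ x * conj (ψ x) := by
    rw [Finset.mul_sum, ← Equiv.sum_comp (Equiv.mulRight (⟨t, ht⟩ : L))]
    exact Finset.sum_congr rfl fun x _ => h x x.2
  rw [dot_eq_sum, (mul_eq_zero.1 (show (1 - c) * ∑ x : L, φ x * conj (ψ x) = 0 by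
    rw [sub_mul, one_mul, ← e, sub_self])).resolve_left (sub_ne_zero.2 c1.symm), mul_zero]

theorem exists_ne_one (hμ : Irr T μ) (μ1 : μ ≠ cf1 T) : ∃ t ∈ T, μ t ≠ μ 1 := by
  by_contra! k
  exact μ1 (hμ.le_cfker_iff_eq_cf1.1 ((hμ.chr.le_cfker_iff le_rfl).2 k))

theorem mult_eq (hT : T ≤ L) (hν : LinChr L ν) (e : res T ν ≠ cf1 T)
    (hc : ∀ x ∈ L, x ∉ T → ∀ t ∈ T, χ (x * t) = χ x) :
    dot T χ ν = T.relIndex L * dot L χ ν := by
  obtain ⟨t, ht, t1⟩ := exists_ne_one (hν.res hT).irr e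
  rw [res_apply_of_mem _ ht, res_one, hν.2] at t1
  have z := dot_shift (φ := χ - res T χ) (ψ := ν) (hT ht) (c := conj (ν t))
    (fun k => t1 (by simpa using congrArg conj k)) fun x hx => by
      by_cases k : x ∈ T
      · simp [k, T.mul_mem k ht]
      · simp only [Pi.sub_apply, res_apply_of_notMem _ k, res_apply_of_notMem _
          (mt (T.mul_mem_cancel_right ht).1 k), hc x hx k t ht, hν.map_mul hx (hT ht), map_mul]
        ring
  rw [dot_sub_left, sub_eq_zero] at z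
  rw [z, ← dot_res_left, dot_eq_relIndex_mul_of_supp hT fun x _ hx => by
    rw [res_apply_of_notMem _ hx, zero_mul]]

theorem dot_ne (hα : Irr H α) (hβ : Irr H β) (hα' : Irr H α') (hβ' : Irr H β') (n : α ≠ β)
    (n' : α' ≠ β') (h : φ = α ∨ φ = β) (h' : φ = α' ∨ φ = β') : dot H (α - β) (α' - β') ≠ 0 := by
  classical
  rw [dot_sub_left, dot_sub_right, dot_sub_right, hα.dot_eq_ite hα', hα.dot_eq_ite hβ',
    hβ.dot_eq_ite hα', hβ.dot_eq_ite hβ']
  rcases h with rfl | rfl <;> rcases h' with rfl | rfl <;>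
    simp only [n, n', n.symm, n'.symm, if_true, if_false] <;> split_ifs <;> norm_num

theorem theta {ι : Type*} (ti : NormedTI D ⊤ H) (D1 : 1 ∉ D) (s : Finset ι) (f g : ι → G → ℂ)
    (ε : ι → ℂ) (hε : ∀ i, ε i = 1 ∨ ε i = -1) (ir : ∀ i ∈ s, Irr H (f i) ∧ Irr H (g i))
    (inj : ∀ i ∈ s, ∀ j ∈ s, i ≠ j → f i ≠ f j ∧ g i ≠ g j) (ne : ∀ i ∈ s, ∀ j ∈ s, f i ≠ g j)
    (hθ : CFOn H D (∑ i ∈ s, ε i • f i)) (hκ : ∀ i ∈ s, CFOn H D (f i - g i)) (hχ : Irr ⊤ χ)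
    (o : ∀ i ∈ s, dot H (f i - g i) χ = 0) : dot H (∑ i ∈ s, ε i • f i) χ = 0 := by
  classical
  have v := (vchr_sum fun i hi => (ir i hi).1.vchr.sign_smul (hε i)).ind ti.le
  have kk : ∀ i ∈ s, ∀ j ∈ s, dot ⊤ (ind ⊤ H (f i - g i)) (ind ⊤ H (f j - g j)) =
      if i = j then 2 else 0 := fun i hi j hj => by
    rw [ti.dot_ind_ind (hκ i hi) (hκ j hj), dot_sub_left, dot_sub_right, dot_sub_right,
      (ir i hi).1.dot_of_ne (ir j hj).2 (ne i hi j hj),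
      (ir i hi).2.dot_of_ne (ir j hj).1 (ne j hj i hi).symm]
    split_ifs with e
    · rw [← e, (ir i hi).1.dot_self, (ir i hi).2.dot_self]; norm_num
    · rw [(ir i hi).1.dot_of_ne (ir j hj).1 (inj i hi j hj e).1,
        (ir i hi).2.dot_of_ne (ir j hj).2 (inj i hi j hj e).2]; norm_num
  have ex : ∀ i, ∃ α β γ, i ∈ s → Irr ⊤ α ∧ Irr ⊤ β ∧ α ≠ β ∧ ind ⊤ H (f i - g i) = α - β ∧
      (γ = α ∨ γ = β) ∧ dot ⊤ (ind ⊤ H (∑ i ∈ s, ε i • f i)) γ ≠ 0 := fun i => by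
    by_cases hi : i ∈ s
    swap
    · exact ⟨0, 0, 0, fun k => absurd k hi⟩
    obtain ⟨α, β, hα, hβ, n, e⟩ := (((ir i hi).1.vchr.sub (ir i hi).2.vchr).ind
      ti.le).exists_eq_sub_of_dot_two (by rw [kk i hi i hi, if_pos rfl])
        (by rw [ind_one ti.le, (hκ i hi).supp 1 D1, mul_zero])
    have z : dot ⊤ (ind ⊤ H (∑ i ∈ s, ε i • f i)) (α - β) = ε i := by
      rw [← e, ti.dot_ind_ind hθ (hκ i hi), dot_sum_left, Finset.sum_eq_single_of_mem i hi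
        fun j hj k => by rw [dot_smul_left, dot_sub_right, (ir j hj).1.dot_of_ne (ir i hi).1
          (inj j hj i hi k).1, (ir j hj).1.dot_of_ne (ir i hi).2 (ne j hj i hi)]; simp,
        dot_smul_left, dot_sub_right, (ir i hi).1.dot_self,
        (ir i hi).1.dot_of_ne (ir i hi).2 (ne i hi i hi)]; simp
    by_cases k : dot ⊤ (ind ⊤ H (∑ i ∈ s, ε i • f i)) α = 0
    · refine ⟨α, β, β, fun _ => ⟨hα, hβ, n, e, Or.inr rfl, fun k' => ?_⟩⟩
      rw [dot_sub_right, k, k'] at z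
      rcases hε i with j | j <;> simp [j] at z
    · exact ⟨α, β, α, fun _ => ⟨hα, hβ, n, e, Or.inl rfl, k⟩⟩
  choose α β γ ex using ex
  have ig : ∀ i ∈ s, Irr ⊤ (γ i) := fun i hi =>
    (ex i hi).2.2.2.2.1.elim (fun e => e ▸ (ex i hi).1) fun e => e ▸ (ex i hi).2.1
  by_contra n
  rw [← frob_left ti.le hθ.cf hχ.cf] at n
  have hS : ∀ φ ∈ insert χ (s.image γ), Irr ⊤ φ ∧ dot ⊤ (ind ⊤ H (∑ i ∈ s, ε i • f i)) φ ≠ 0 :=
    fun φ k => by
      rcases Finset.mem_insert.1 k with rfl | k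
      · exact ⟨hχ, n⟩
      · obtain ⟨i, hi, rfl⟩ := Finset.mem_image.1 k
        exact ⟨ig i hi, (ex i hi).2.2.2.2.2⟩
  have b := (orthonormal_of_irr fun φ k => (hS φ k).1).card_filter_le_nrm
    (fun φ k => (hS φ k).1.vchr) v
  rw [Finset.filter_true_of_mem fun φ k => (hS φ k).2, Finset.card_insert_of_notMem fun k => ?_,
    Finset.card_image_of_injOn fun i hi j hj e => by_contra fun k => ?_,
    nrm_eq_of_dot (r := s.card) ?_] at b
  · simp at b; linarith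
  · rw [ti.dot_ind_ind hθ hθ, dot_sum_self_of_ortho _ _ fun i hi j hj k => by
      rw [dot_smul_left, dot_smul_right, (ir i hi).1.dot_of_ne (ir j hj).1 (inj i hi j hj k).1]; simp,
      Finset.sum_congr rfl (g := fun _ => 1) fun i hi => by
        rw [dot_smul_left, dot_smul_right, (ir i hi).1.dot_self]
        rcases hε i with j | j <;> simp [j]]
    simp
  · obtain ⟨h1, h2, h3, h4, h5, -⟩ := ex i hi
    obtain ⟨k1, k2, k3, k4, k5, -⟩ := ex j hj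
    exact dot_ne h1 h2 k1 k2 h3 k3 h5 (e ▸ k5) (by rw [← h4, ← k4, kk i hi j hj, if_neg k])
  · obtain ⟨i, hi, rfl⟩ := Finset.mem_image.1 k
    obtain ⟨h1, h2, h3, h4, h5, -⟩ := ex i hi
    have := o i hi
    rw [← frob_left ti.le (hκ i hi).cf hχ.cf, h4, dot_sub_left] at this
    rcases h5 with e | e <;> rw [e] at this
    · simp [h1.dot_self, h2.dot_of_ne h1 h3.symm] at this
    · simp [h2.dot_self, h1.dot_of_ne h2 h3] at this

/-- the central involution `a` and the abelian normal subgroup `T` of `H` -/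
structure Cf (H T : Subgroup G) (a : G) : Prop where
  nT : T ⊴ H
  ab : IsMulCommutative T
  odd : Odd #|T|
  aH : a ∈ H
  ac : a ∈ 𝐂(H)
  a2 : a * a = 1
  a1 : a ≠ 1

namespace Cf
variable (h : Cf H T a)
include h

theorem odd_a : ¬ Odd (orderOf a) := by
  rw [orderOf_eq_prime (p := 2) (by rw [pow_two, h.a2]) h.a1]; decide

theorem aT : a ∉ T := fun e => h.odd_a (h.odd.of_dvd_nat (orderOf_dvd_natCard _ e))

theorem dp : DProd T (zpowers a) (T ⊔ zpowers a) :=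
  ⟨zpowers_le.2 (cent_anti h.nT.le h.ac), disjoint_iff.1 (disjoint_of_coprime_natCard
    (cop_two (B9.pgroup_of_card_dvd Nat.prime_two (B9.card_zpowers_dvd
      (by rw [pow_one, pow_two, h.a2]))) h.odd).symm), rfl⟩

/-- the extension of `μ` with `a` in the kernel -/
noncomputable def hat (μ : G → ℂ) : G → ℂ := cfDp h.dp μ (cf1 (zpowers a))

theorem hat_lin (hμ : Irr T μ) : LinChr (T ⊔ zpowers a) (h.hat μ) :=
  haveI := h.ab
  linChr_cfDp _ hμ.linChr_of_comm (linChr_cf1 _)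

theorem hat_mul (ht : t ∈ T) {x : G} (hx : x ∈ zpowers a) : h.hat μ (t * x) = μ t := by
  rw [hat, cfDp_apply _ _ _ ht hx, cf1_of_mem hx, mul_one]

theorem hat_T (ht : t ∈ T) : h.hat μ t = μ t := by simpa using h.hat_mul (μ := μ) ht (one_mem _)

theorem fam (hμ : Irr T μ) (μ1 : μ ≠ cf1 T) (hd : ⁅H ⊓ inert μ, H ⊓ inert μ⁆ ≤ cfker T μ)
    (he : ∀ x ∈ H ⊓ inert μ, ¬ Odd (orderOf x) → a ∈ zpowers x) (hD : ∀ x, a ∈ zpowers x → x ∈ D)
    (hχ : CF ⊤ χ) (hc : ∀ x, a ∈ zpowers x → ∀ t ∈ T, χ (x * t) = χ x) :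
    ∃ (B : Finset (G → ℂ)) (f g : (G → ℂ) → G → ℂ), ind H (T ⊔ zpowers a) (h.hat μ) = ∑ ν ∈ B, f ν ∧
      (∀ ν ∈ B, (Irr H (f ν) ∧ Irr H (g ν)) ∧ (dot T (f ν) μ ≠ 0 ∧ dot T (g ν) μ ≠ 0) ∧
        (f ν a = f ν 1 ∧ g ν a = - g ν 1) ∧ CFOn H D (f ν - g ν) ∧ dot H (f ν - g ν) χ = 0) ∧
      ∀ ν ∈ B, ∀ ν' ∈ B, ν ≠ ν' → f ν ≠ f ν' ∧ g ν ≠ g ν' := by
  classical
  haveI := h.ab
  set I := H ⊓ inert μ with hI
  have l := h.hat_lin hμ
  have TI := normalIn_inf_inert h.nT hμ.cf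
  have na : H ≤ 𝐍(zpowers a) := le_norm_zpowers_of_cent (le_cent1_iff.2 h.ac)
  have aI : a ∈ I := ⟨h.aH, fun x => by
    by_cases hx : x ∈ T
    · rw [← mem_cent.1 h.ac x (h.nT.le hx), mul_inv_cancel_right]
    · rw [hμ.1 x hx, hμ.1 _ (mt (h.nT.conj_mem_iff h.aH).1 hx)]⟩
  have KI : T ⊔ zpowers a ⊴ I := ⟨sup_le TI.le (zpowers_le.2 aI),
    le_normalizer_sup TI.norm (inf_le_left.trans na)⟩
  have hi : I ≤ inert (h.hat μ) := fun g hg => mem_inert.2 (by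
    rw [hat, cfJ_cfDp _ _ _ (TI.norm hg) (na hg.1), mem_inert.1 hg.2, cfJ_cf1 (na hg.1)])
  have dT := hd.trans (cfker_le _ _)
  have key : ∀ ν, Irr I ν → dot (T ⊔ zpowers a) ν (h.hat μ) ≠ 0 →
      LinChr I ν ∧ res (T ⊔ zpowers a) ν = h.hat μ := fun ν hν k => by
    have h1 := hν.linChr_of_der1_le (hν.le_cfker_of_over KI.le l.1 k (left_le_norm_comm I I)
      fun x hx => l.mem_cfker.2 (by
        rw [h.hat_T (dT hx)]; exact hμ.linChr_of_comm.mem_cfker.1 (hd hx)))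
    have h2 := hν.res_eq_smul_of_le_inert KI l.irr k hi
    have h3 := congrFun h2 1
    rw [res_one, h1.2, Pi.smul_apply, l.2, smul_eq_mul, mul_one] at h3
    exact ⟨h1, by rw [h2, ← h3, one_smul]⟩
  have oI : ∀ x ∈ I, Odd (orderOf x) → x ∈ core {2}ᶜ I := fun x hx k =>
    le_core (NormalIn.of_der1_le (sup_le TI.le (zpowers_le.2 hx)) (dT.trans le_sup_left))
      (odd_iff_piGrp.1 (odd_sup h.odd (by rwa [Nat.card_zpowers])
        (Or.inr (zpowers_le.2 (TI.norm hx))))) (mem_sup_right (mem_zpowers x))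
  have TO : T ≤ core {2}ᶜ I := le_core TI (odd_iff_piGrp.1 h.odd)
  obtain ⟨σ, hσ, s1, s2⟩ := exists_lin_not_le_cfker (K := zpowers a) (core_normal {2}ᶜ I) fun k =>
    h.odd_a ((odd_iff_piGrp.2 (core_pi _ _)).of_dvd_nat (orderOf_dvd_natCard _
      (sup_le (dT.trans TO) le_rfl (k (mem_zpowers a)))))
  have sT : ∀ t ∈ T, σ t = 1 := fun t ht => hσ.mem_cfker.1 (s1 (TO ht))
  have sa : σ a = -1 := (mul_self_eq_one_iff.1 (by rw [← hσ.map_mul aI aI, h.a2, hσ.2])).resolve_left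
    fun k => s2 (zpowers_le.2 (hσ.mem_cfker.2 k))
  have sx : ∀ x ∈ I, a ∉ zpowers x → σ x = 1 := fun x hx k =>
    hσ.mem_cfker.1 (s1 (oI x hx (by_contra fun j => k (he x hx j))))
  refine ⟨(irrs I).filter fun ν => dot (T ⊔ zpowers a) ν (h.hat μ) ≠ 0, fun ν => ind H I ν,
    fun ν => ind H I (ν * σ), ?_, ?_⟩
  · rw [← ind_ind _ (inf_le_left : I ≤ H), ← map_sum, (l.1.cf.ind KI.le).eq_sum_of_constituents
      (S := (irrs I).filter fun ν => dot (T ⊔ zpowers a) ν (h.hat μ) ≠ 0)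
      (fun ν k => mem_irrs.1 (Finset.mem_filter.1 k).1) fun ν hν k => Finset.mem_filter.2
        ⟨mem_irrs.2 hν, dot_ne_zero_comm.1 (by rwa [frob_left KI.le l.1.cf hν.cf] at k)⟩]
    refine congrArg _ (Finset.sum_congr rfl fun ν k => ?_)
    have hν := mem_irrs.1 (Finset.mem_filter.1 k).1
    rw [frob_left KI.le l.1.cf hν.cf, ← dot_res_right, (key ν hν (Finset.mem_filter.1 k).2).2,
      l.irr.dot_self, one_smul]
  have bs : ∀ ν ∈ (irrs I).filter fun ν => dot (T ⊔ zpowers a) ν (h.hat μ) ≠ 0, LinChr I ν ∧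
      (∀ t ∈ T, ν t = μ t) ∧ ν a = 1 ∧ dot T ν μ ≠ 0 ∧ dot T (ν * σ) μ ≠ 0 := fun ν k => by
    obtain ⟨h1, h2⟩ := key ν (mem_irrs.1 (Finset.mem_filter.1 k).1) (Finset.mem_filter.1 k).2
    have h3 : ∀ t ∈ T, ν t = μ t := fun t ht => by
      rw [← h.hat_T (μ := μ) ht, ← h2, res_apply_of_mem _ (mem_sup_left ht)]
    refine ⟨h1, h3, ?_, ?_, ?_⟩
    · rw [← res_apply_of_mem ν (mem_sup_right (mem_zpowers a)), h2, ← hμ.apply_one_of_comm,
        ← h.hat_mul (μ := μ) (one_mem _) (mem_zpowers a), one_mul]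
    · rw [dot_congr h3 fun _ _ => rfl, hμ.dot_self]; exact one_ne_zero
    · rw [dot_congr (φ' := μ) (fun t ht => by simp [h3 t ht, sT t ht]) fun _ _ => rfl, hμ.dot_self]
      exact one_ne_zero
  refine ⟨fun ν k => ?_, fun ν k ν' k' n => ?_⟩
  · obtain ⟨h1, h2, h3, h4, h5⟩ := bs ν k
    have c1 := clifford_corr_irr' h.nT hμ h1.irr h4
    have c2 := clifford_corr_irr' h.nT hμ (h1.mul hσ).irr h5
    have cf := h1.1.cf.sub (h1.mul hσ).1.cf
    refine ⟨⟨c1.1, c2.1⟩, ⟨c1.2 ▸ h4, c2.2 ▸ h5⟩, ⟨?_, ?_⟩, ?_, ?_⟩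
    · beta_reduce
      rw [ind_apply_of_cent inf_le_left _ h.ac, ind_one inf_le_left, h3, h1.2]
    · beta_reduce
      rw [ind_apply_of_cent inf_le_left _ h.ac, ind_one inf_le_left]
      simp [h3, h1.2, hσ.2, sa]
    · refine ⟨c1.1.cf.sub c2.1.cf, fun x hx => ?_⟩
      rw [← map_sub]
      refine ind_apply_eq_zero fun y hy => ?_
      by_cases j : y * x * y⁻¹ ∈ I
      · have : a ∉ zpowers (y * x * y⁻¹) := fun e => hx (hD x (by
          rwa [← conj_zpowers, mem_conj, mul_assoc, mem_cent.1 h.ac y hy |>.symm,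
            inv_mul_cancel_left] at e))
        simp [sx _ j this]
      · exact cf.zero _ j
    · obtain ⟨t, ht, t1⟩ := exists_ne_one hμ μ1
      rw [← map_sub, dot_ind_left inf_le_left cf.zero (le_top.trans hχ.le_inert)]
      refine dot_shift (TI.le ht) (hμ.apply_one_of_comm ▸ t1) fun x hx => ?_
      simp only [Pi.sub_apply, Pi.mul_apply, h1.map_mul hx (TI.le ht), hσ.map_mul hx (TI.le ht),
        sT t ht, h2 t ht]
      by_cases j : a ∈ zpowers x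
      · rw [hc x j t ht]; ring
      · rw [sx x hx j]; ring
  · obtain ⟨h1, -, -, h4, h5⟩ := bs ν k
    obtain ⟨k1, -, -, k4, k5⟩ := bs ν' k'
    refine ⟨fun e => n (clifford_corr_inj' h.nT hμ h1.irr h4 k1.irr k4 e), fun e => n ?_⟩
    have := clifford_corr_inj' h.nT hμ (h1.mul hσ).irr h5 (k1.mul hσ).irr k5 e
    exact h1.1.cf.ext k1.1.cf fun x hx => mul_right_cancel₀ (hσ.ne_zero hx) (congrFun this x)

end Cf

end Cfsg.Agent.Go.BD
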