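import Cfsg.Agent.Go.E1
import Cfsg.Agent.FT.B9
import Cfsg.Agent.R1.Lin
import Cfsg.Agent.Be.B1
import Mathlib.GroupTheory.IndexNormal

/-! Slice BL of notes/goldschmidt.md: general lemmas. -/

set_option autoImplicit false

namespace Cfsg.Agent.Go.BL

open Subgroup Cfsg.Agent.H1 Cfsg.Agent.L Cfsg.Agent.FT Cfsg.Agent.Sg
open scoped Pointwise commutatorElement

variable {G : Type*} [Group G] {A S O T I L P K X Y : Subgroup G} {a s t u v x z ε ρ : G}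

theorem conj_iter (e : ε * u * ε⁻¹ = u * z) (hz : ε * z = z * ε) (n : ℕ) :
    ε ^ n * u * (ε ^ n)⁻¹ = u * z ^ n := by
  induction n with
  | zero => simp
  | succ n ih =>
    have c : ε * z ^ n * ε⁻¹ = z ^ n := by
      rw [(Commute.pow_right hz n).eq, mul_inv_cancel_right]
    calc _ = ε * (ε ^ n * u * (ε ^ n)⁻¹) * ε⁻¹ := by rw [pow_succ']; group
      _ = _ := by rw [ih, ← conj_mul, e, c, pow_succ', mul_assoc]

theorem pow_odd (h : z * z = 1) {n : ℕ} (hn : Odd n) : z ^ n = z := by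
  obtain ⟨k, rfl⟩ := hn
  rw [pow_succ, pow_mul, pow_two, h, one_pow, one_mul]

theorem fix_of_odd (hz : ε * (u⁻¹ * (ε * u * ε⁻¹)) = u⁻¹ * (ε * u * ε⁻¹) * ε)
    (h : u⁻¹ * (ε * u * ε⁻¹) * (u⁻¹ * (ε * u * ε⁻¹)) = 1) {n : ℕ} (hn : Odd n)
    (hc : ε ^ n * u = u * ε ^ n) : ε * u = u * ε := by
  have := conj_iter (mul_inv_cancel_left u _).symm hz n
  rw [hc, mul_inv_cancel_right, pow_odd h hn, mul_inv_cancel_left] at this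
  rw [mul_inv_eq_iff_eq_mul.1 this.symm]

variable [Finite G]

theorem eq_one_of_odd (ho : Odd #|O|) (hx : x ∈ O) (h : x * x = 1) : x = 1 := by
  have := pow_card_eq_one' (x := (⟨x, hx⟩ : O))
  have h2 : x ^ #|O| = 1 := congrArg Subtype.val this
  rwa [pow_odd h ho] at h2

theorem inv_of_reg (hn : v ∈ 𝐍(X)) (h2 : v * v ∈ 𝐂(X)) (h : X ⊓ 𝐂[v] = ⊥) (hx : x ∈ X) :
    v * x * v⁻¹ = x⁻¹ := by
  obtain ⟨u, hu, e⟩ := exists_conj_of_reg hn h hx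
  have c := mem_cent.1 h2 u⁻¹ (X.inv_mem hu)
  rw [eq_mul_inv_of_mul_eq e]
  calc _ = v * u * v⁻¹ * (v * v * u⁻¹) * v⁻¹ * v⁻¹ := by group
    _ = _ := by rw [← c]; group

theorem der_le_of_three (ho : Odd #|O|) (h : I.relIndex O ∣ 3) : ⁅O, O⁆ ≤ I := by
  rw [← inf_relIndex_right] at h
  refine (B9.der1_le_of_cycMod ?_ (B9.cycMod_of_relIndex Nat.prime_three inf_le_right h)).trans
    inf_le_left
  rcases (Nat.dvd_prime Nat.prime_three).1 h with e | e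
  · rw [inf_of_le_right ((relIndex_eq_one.1 e).trans inf_le_left)]; exact NormalIn.refl O
  refine ⟨inf_le_right, (normal_subgroupOf_iff_le_normalizer inf_le_right).1
    (normal_of_index_eq_minFac_card (e.trans ?_))⟩
  have h3 : 3 ∣ #|O| := e ▸ relIndex_dvd_card' _ _
  have h1 : #|O| ≠ 1 := fun e => by rw [e] at h3; omega
  have h4 := Nat.minFac_le_of_dvd (by norm_num) h3
  have h5 := (Nat.minFac_prime h1).two_le
  have h6 : (#|O|).minFac ≠ 2 := fun e => ho.not_two_dvd_nat (e ▸ Nat.minFac_dvd _)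
  omega

theorem cent_of_nine (hY : IsPGroup 5 Y) (hn : Y ≤ 𝐍(O)) (h : #|O| ∣ 9) : O ≤ 𝐂(Y) := by
  haveI : Fact (Nat.Prime 5) := ⟨by norm_num⟩
  letI := H2.conjAction Y O hn
  have h1 := hY.card_modEq_card_fixedPoints O
  have h2 : Nat.card (MulAction.fixedPoints Y O) = #|(𝐂(Y)).subgroupOf O| :=
    Nat.card_congr (Equiv.subtypeEquivRight fun x => ⟨fun h => mem_cent.2 fun a ha =>
      mul_inv_eq_iff_eq_mul.1 (congrArg Subtype.val (h ⟨a, ha⟩)), fun h a => Subtype.ext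
        (mul_inv_eq_iff_eq_mul.2 (mem_cent.1 h a a.2))⟩)
  rw [h2] at h1
  have h3 := card_subgroup_dvd_card ((𝐂(Y)).subgroupOf O)
  refine subgroupOf_eq_top.1 ((card_eq_iff_eq_top _).1 ?_)
  generalize #|(𝐂(Y)).subgroupOf O| = m at *
  generalize #|O| = n at *
  have h4 := Nat.le_of_dvd (by norm_num) h
  have h5 := Nat.le_of_dvd (by norm_num) (h3.trans h)
  unfold Nat.ModEq at h1
  interval_cases n <;> interval_cases m <;> simp_all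

/-- the action of `S / A` on the abelian group `O` -/
structure Act (A S O : Subgroup G) : Prop where
  odd : Odd #|O|
  ab : O ≤ 𝐂(O)
  nS : S ≤ 𝐍(O)
  cA : A ≤ 𝐂(O)
  sq : ∀ s ∈ S, s * s ∈ A
  cm : ∀ s ∈ S, ∀ t ∈ S, s * t * s⁻¹ * t⁻¹ ∈ A

namespace Act
variable (h : Act A S O)
include h

theorem cj (hs : s ∈ S) (hx : x ∈ O) : s * x * s⁻¹ ∈ O := conj_mem_of_mem_normalizer (h.nS hs) hx

theorem c2 (hs : s ∈ S) (hx : x ∈ O) : s * (s * x * s⁻¹) * s⁻¹ = x := by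
  calc _ = s * s * x * (s * s)⁻¹ := by group
    _ = _ := by rw [← mem_cent.1 (h.cA (h.sq s hs)) x hx, mul_inv_cancel_right]

theorem cc (hs : s ∈ S) (ht : t ∈ S) (hx : x ∈ O) :
    s * (t * x * t⁻¹) * s⁻¹ = t * (s * x * s⁻¹) * t⁻¹ := by
  have := mem_cent.1 (h.cA (h.cm _ (S.inv_mem hs) _ (S.inv_mem ht))) x hx
  calc _ = t * s * (s⁻¹ * t⁻¹ * s⁻¹⁻¹ * t⁻¹⁻¹ * x) * t⁻¹ * s⁻¹ := by group
    _ = _ := by rw [← this]; group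

theorem exists_pm (hc : ¬ O ≤ 𝐂(S)) : ∃ z ∈ O, z ≠ 1 ∧
    (∀ s ∈ S, s * z * s⁻¹ = z ∨ s * z * s⁻¹ = z⁻¹) ∧ ∃ s ∈ S, s * z * s⁻¹ = z⁻¹ := by
  obtain ⟨x, ⟨hx, x1⟩, mx⟩ := Set.exists_max_image {x | x ∈ O ∧ x ∉ 𝐂(S)} (fun x => #|S ⊓ 𝐂[x]|)
    (Set.toFinite _) (SetLike.not_le_iff_exists.1 hc)
  have fx : ∀ {y t : G}, t ∈ 𝐂[y] ↔ t * y * t⁻¹ = y := mem_cent1.trans mul_inv_eq_iff_eq_mul.symm
  have key : ∀ y ∈ O, S ⊓ 𝐂[x] ≤ 𝐂[y] → ∀ s ∈ S, s * y * s⁻¹ ≠ y → y * (s * y * s⁻¹) ∈ 𝐂(S) :=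
    fun y hy hl s hs e => by
    by_contra n
    refine (mx _ ⟨O.mul_mem hy (h.cj hs hy), n⟩).not_gt (card_lt_of_lt (lt_of_le_of_ne
      (fun t ht => ⟨ht.1, fx.2 ?_⟩) fun k => e (fx.1 (hl (k.ge ⟨hs, fx.2 ?_⟩)))))
    · rw [← conj_mul, h.cc ht.1 hs hy, fx.1 (hl ht)]
    · rw [← conj_mul, h.c2 hs hy, mem_cent.1 (h.ab hy) _ (h.cj hs hy)]
  obtain ⟨s, hs, e⟩ : ∃ s ∈ S, s * x * s⁻¹ ≠ x := by
    by_contra! k
    exact x1 (mem_cent.2 fun s hs => mul_inv_eq_iff_eq_mul.1 (k s hs))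
  have hz := O.mul_mem hx (O.inv_mem (h.cj hs hx))
  have i : s * (x * (s * x * s⁻¹)⁻¹) * s⁻¹ = (x * (s * x * s⁻¹)⁻¹)⁻¹ := by
    rw [← conj_mul, ← conj_inv, h.c2 hs hx, mul_inv_rev, inv_inv]
  refine ⟨_, hz, fun k => e (mul_inv_eq_one.1 k).symm, fun t ht => or_iff_not_imp_left.2 fun k => ?_,
    s, hs, i⟩
  have h1 := key _ hz (fun r hr => fx.2 (by
    rw [← conj_mul, ← conj_inv, h.cc hr.1 hs hx, fx.1 hr.2])) t ht k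
  generalize x * (s * x * s⁻¹)⁻¹ = z at *
  have h2 := mul_inv_eq_iff_eq_mul.2 (mem_cent.1 h1 s hs)
  rw [← conj_mul, h.cc hs ht hz, i, ← conj_inv, ← mul_inv_rev,
    mem_cent.1 (h.ab hz) _ (h.cj ht hz)] at h2
  exact eq_inv_of_mul_eq_one_right (eq_one_of_odd h.odd (O.mul_mem hz (h.cj ht hz))
    (mul_eq_one_iff_inv_eq.2 h2))

/-- the elements inverted by `s` -/
def ivs (s : G) : Subgroup G where
  carrier := {x | x ∈ O ∧ s * x * s⁻¹ = x⁻¹}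
  one_mem' := ⟨O.one_mem, by simp⟩
  mul_mem' := fun {x y} hx hy => ⟨O.mul_mem hx.1 hy.1, by
    rw [← conj_mul, hx.2, hy.2, ← mul_inv_rev, mem_cent.1 (h.ab hx.1) y hy.1]⟩
  inv_mem' := fun {x} hx => ⟨O.inv_mem hx.1, by rw [← conj_inv, hx.2]⟩

theorem card_sup (h1 : X ≤ h.ivs s) (h2 : Y ≤ O) (h3 : Y ≤ 𝐂[s]) : #|X ⊔ Y| = #|X| * #|Y| :=
  card_sup_of_disjoint (le_norm_of_le_cent fun x hx => cent_anti h2 (h.ab (h1 hx).1))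
    (disjoint_iff.2 (eq_bot_iff.2 fun x hx => eq_one_of_odd h.odd (h2 hx.2) (by
      have := (h1 hx.1).2
      rw [← mem_cent1.1 (h3 hx.2), mul_inv_cancel_right] at this
      exact mul_eq_one_iff_eq_inv.2 this)))

theorem three_le (hz : z ∈ O) (z1 : z ≠ 1) : 3 ≤ #|zpowers z| := by
  have h1 := odd_of_le h.odd (zpowers_le.2 hz)
  have h2 : #|zpowers z| ≠ 1 := fun e => z1 (zpowers_eq_bot.1 (card_eq_one.1 e))
  obtain ⟨k, hk⟩ := h1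
  omega

theorem rel_two (hz : z ∈ O) (z1 : z ≠ 1) (pm : ∀ s ∈ S, s * z * s⁻¹ = z ∨ s * z * s⁻¹ = z⁻¹)
    (ht : t ∈ S) (e : t * z * t⁻¹ = z⁻¹) : (𝐂[z]).relIndex S = 2 := by
  have n : z ≠ z⁻¹ := fun e => z1 (eq_one_of_odd h.odd hz (mul_eq_one_iff_eq_inv.2 e))
  refine relIndex_eq_two_iff.2 ⟨t, ht, fun b hb => ?_⟩
  have k : b * t * z * (b * t)⁻¹ = (b * z * b⁻¹)⁻¹ := by rw [conj_inv, ← e]; group
  rw [mem_cent1, mem_cent1, ← mul_inv_eq_iff_eq_mul, ← mul_inv_eq_iff_eq_mul, k]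
  rcases pm b hb with j | j <;> rw [j]
  · exact Or.inr ⟨rfl, n.symm⟩
  · exact Or.inl ⟨inv_inv z, n.symm⟩

theorem le_cent (ρS : ρ ∈ 𝐍(S)) (ρO : ρ ∈ 𝐍(O))
    (pr : ∀ s ∈ S, s * (ρ * s * ρ⁻¹) * (ρ * (ρ * s * ρ⁻¹) * ρ⁻¹) = 1) (hc : 4 * #|A| < #|S|)
    (hW : ∀ u ∈ S, u ∉ A → #|O ⊓ 𝐂[u]| ≤ 9) : O ≤ 𝐂(S) := by
  by_contra n
  obtain ⟨z, hz, z1, pm, s, hs, e⟩ := h.exists_pm n
  have cS : ∀ {s}, s ∈ S → ρ * s * ρ⁻¹ ∈ S := fun hs => conj_mem_of_mem_normalizer ρS hs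
  have cO : ∀ {x}, x ∈ O → ρ⁻¹ * x * ρ⁻¹⁻¹ ∈ O := fun hx =>
    conj_mem_of_mem_normalizer (inv_mem ρO) hx
  have fx : ∀ {y t : G}, t ∈ 𝐂[y] ↔ t * y * t⁻¹ = y := mem_cent1.trans mul_inv_eq_iff_eq_mul.symm
  have tr : ∀ s y : G, s * (ρ⁻¹ * y * ρ⁻¹⁻¹) * s⁻¹ =
    ρ⁻¹ * (ρ * s * ρ⁻¹ * y * (ρ * s * ρ⁻¹)⁻¹) * ρ⁻¹⁻¹ := fun s y => by group
  have iv : ∀ s ∈ S, s ∉ 𝐂[z] → s * z * s⁻¹ = z⁻¹ := fun s hs k => (pm s hs).resolve_left (mt fx.2 k)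
  obtain ⟨t, ht, t0, t1⟩ : ∃ t ∈ S, t * z * t⁻¹ = z⁻¹ ∧ ρ * t * ρ⁻¹ * z * (ρ * t * ρ⁻¹)⁻¹ = z⁻¹ := by
    by_cases k : ρ * s * ρ⁻¹ ∈ 𝐂[z]
    · have k2 : ρ * (ρ * s * ρ⁻¹) * ρ⁻¹ ∉ 𝐂[z] := fun k2 => z1 (eq_one_of_odd h.odd hz (by
        have : s ∈ 𝐂[z] := by
          rw [eq_inv_of_mul_eq_one_left ((mul_assoc _ _ _).symm.trans (pr s hs))]
          exact inv_mem (mul_mem k k2)
        exact mul_eq_one_iff_eq_inv.2 ((fx.1 this).symm.trans e)))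
      refine ⟨_, cS (cS hs), iv _ (cS (cS hs)) k2, iv _ (cS (cS (cS hs))) fun k3 => k2 ?_⟩
      exact (mul_mem_cancel_left k).1 ((mul_mem_cancel_right k3).1 (pr _ (cS hs) ▸ one_mem _))
    · exact ⟨s, hs, e, iv _ (cS hs) k⟩
  have t2 : ρ * (ρ * t * ρ⁻¹) * ρ⁻¹ ∈ 𝐂[z] := by
    rw [eq_inv_of_mul_eq_one_right (pr t ht)]
    refine inv_mem (fx.2 ?_)
    calc _ = t * (ρ * t * ρ⁻¹ * z * (ρ * t * ρ⁻¹)⁻¹) * t⁻¹ := by group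
      _ = _ := by rw [t1, ← conj_inv, t0, inv_inv]
  have i2 : t * (ρ⁻¹ * z * ρ⁻¹⁻¹) * t⁻¹ = (ρ⁻¹ * z * ρ⁻¹⁻¹)⁻¹ := by rw [tr, t1, conj_inv]
  have n2 : ρ⁻¹ * z * ρ⁻¹⁻¹ ≠ 1 := mt conj_eq_one_iff.1 z1
  obtain ⟨u, hu, u1⟩ : ∃ u ∈ (𝐂[z] ⊓ 𝐂[ρ⁻¹ * z * ρ⁻¹⁻¹]) ⊓ S, u ∉ A := by
    by_contra! k
    have h1 := card_le_of_le' (k : _ ⊓ S ≤ A)
    have h2 := card_mul_relIndex_of_le (inf_le_right : (𝐂[z] ⊓ 𝐂[ρ⁻¹ * z * ρ⁻¹⁻¹]) ⊓ S ≤ S)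
    have h3 := relIndex_inf_le (H := 𝐂[z]) (K := 𝐂[ρ⁻¹ * z * ρ⁻¹⁻¹]) (L := S)
    rw [h.rel_two hz z1 pm ht t0, h.rel_two (cO hz) n2 (fun s hs => by
      rw [tr]; exact (pm _ (cS hs)).imp (fun e => by rw [e]) fun e => by rw [e, conj_inv]) ht i2,
      ← inf_relIndex_right] at h3
    have := Nat.mul_le_mul h1 h3
    omega
  have u2 : ρ * u * ρ⁻¹ ∈ 𝐂[z] := fx.2 (mul_left_cancel (mul_right_cancel ((tr _ _).symm.trans (fx.1 hu.1.2))))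
  have u3 : ρ * (ρ * u * ρ⁻¹) * ρ⁻¹ ∈ 𝐂[z] :=
    ((𝐂[z]).mul_mem_cancel_left ((𝐂[z]).mul_mem hu.1.1 u2)).1 (pr u hu.2 ▸ one_mem _)
  have sw : ∀ {y w : G}, w ∈ 𝐂[y] → zpowers y ≤ 𝐂[w] := fun k =>
    zpowers_le.2 (mem_cent1.2 (mem_cent1.1 k).symm)
  have f3 : ∀ {w : G}, ρ * (ρ * w * ρ⁻¹) * ρ⁻¹ ∈ 𝐂[z] → w ∈ 𝐂[ρ⁻¹ * (ρ⁻¹ * z * ρ⁻¹⁻¹) * ρ⁻¹⁻¹] :=
    fun k => fx.2 (by rw [tr, tr, fx.1 k])
  have h1 := h.card_sup (s := t) (sup_le (zpowers_le.2 ⟨hz, t0⟩) (zpowers_le.2 ⟨cO hz, i2⟩))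
    (zpowers_le.2 (cO (cO hz))) (sw (f3 t2))
  rw [h.card_sup (s := ρ * t * ρ⁻¹) (zpowers_le.2 ⟨hz, t1⟩) (zpowers_le.2 (cO hz))
    (sw (fx.2 (by rw [tr, fx.1 t2])))] at h1
  have h2 := (card_le_of_le' (sup_le (sup_le (le_inf (zpowers_le.2 hz) (sw hu.1.1))
    (le_inf (zpowers_le.2 (cO hz)) (sw hu.1.2))) (le_inf (zpowers_le.2 (cO (cO hz)))
      (sw (f3 u3))))).trans (hW u hu.2 u1)
  have := Nat.mul_le_mul (Nat.mul_le_mul (h.three_le hz z1) (h.three_le (cO hz) n2))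
    (h.three_le (cO (cO hz)) (mt conj_eq_one_iff.1 n2))
  omega

end Act

theorem dvd_sum_of_classes {p : ℕ} {X : Finset (G → ℂ)} (hX : ∀ θ ∈ X, Irr T θ)
    (hc : ∀ θ ∈ X, cfclass L T θ ⊆ X) (f : (G → ℂ) → ℕ)
    (h : ∀ θ ∈ X, p ∣ ∑ φ ∈ cfclass L T θ, f φ) : p ∣ ∑ θ ∈ X, f θ := by
  classical
  rw [← Finset.sum_fiberwise_of_maps_to (fun θ hθ => Finset.mem_image_of_mem (cfclass L T) hθ)]
  refine Finset.dvd_sum fun c hc' => ?_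
  obtain ⟨θ, hθ, rfl⟩ := Finset.mem_image.1 hc'
  rw [show X.filter (fun φ => cfclass L T φ = cfclass L T θ) = cfclass L T θ from Finset.ext fun φ =>
    Finset.mem_filter.trans ⟨fun k => k.2 ▸ self_mem_cfclass L (hX φ k.1),
      fun k => ⟨hc θ hθ k, cfclass_eq_of_mem k⟩⟩]
  exact h θ hθ

theorem two_le_mult {χ μ : G → ℂ} (hT : IsMulCommutative T) (ha : a ∈ 𝐂(T)) (a2 : a * a = 1)
    (aT : a ∉ T) (hχ : Chr ⊤ χ) (hc : ∀ t ∈ T, χ (a * t) = χ a) (hμ : Irr T μ) (h1 : μ ≠ cf1 T) :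
    ∃ m : ℕ, dot T χ μ = 2 * m := by
  have an := cent_le_norm T ha
  have hK : T ⊴ T ⊔ zpowers a := ⟨le_sup_left, sup_le le_normalizer (zpowers_le.2 an)⟩
  have r2 := B9.relIndex_sup_zpowers Nat.prime_two an aT (by rw [pow_two, a2]; exact one_mem _)
  obtain ⟨ν, hν, e⟩ := hμ.exists_extension_of_cycMod hK (sup_le hμ.cf.le_inert (zpowers_le.2
    fun x => by
      by_cases hx : x ∈ T
      · rw [← mem_cent.1 ha x hx, mul_inv_cancel_right]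
      · rw [hμ.1 x hx, hμ.1 _ (mt (conj_mem_iff_of_norm an).1 hx)]))
    (B9.cycMod_of_relIndex Nat.prime_two le_sup_left r2.dvd)
  obtain ⟨m, hm⟩ := hχ.exists_nat_dot_res hν.chr le_top
  have sp : ∀ φ : G → ℂ, dot T φ μ = 2 * dot (T ⊔ zpowers a) (res T φ) ν := fun φ => by
    rw [← e, dot_res_right, ← dot_res_left, dot_eq_relIndex_mul_of_supp hK.le fun x _ hx => by
      rw [res_apply_of_notMem _ hx, zero_mul], r2, Nat.cast_two]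
  have z1 : dot (T ⊔ zpowers a) (res T (cf1 T)) ν = 0 := by
    simpa [(irr_cf1 T).dot_of_ne hμ h1.symm] using (sp (cf1 T)).symm
  refine ⟨m, ?_⟩
  rw [sp, ← hm, dot_congr (φ := χ) (φ' := res T χ + χ a • (cf1 (T ⊔ zpowers a) - res T (cf1 T)))
    (fun x hx => ?_) (fun _ _ => rfl), dot_add_left, dot_smul_left, dot_sub_left, z1,
    (irr_cf1 _).dot_of_ne hν fun k => h1 (by rw [← e, ← k, res_cf1 hK.le])]
  · simp
  by_cases k : x ∈ T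
  · simp [k, hx]
  obtain ⟨t, ht, y, hy, rfl⟩ := (H1.mem_sup_of_le_normalizer' (zpowers_le.2 an)).1 hx
  rcases Be.zpowers_cases a2 hy with rfl | rfl
  · exact absurd (by simpa using ht) k
  · simp only [Pi.add_apply, Pi.smul_apply, Pi.sub_apply, res_apply_of_notMem _ k, cf1_of_mem hx]
    simp [mem_cent.1 ha t ht, hc t ht]

theorem exists_lam {χ : G → ℂ} {p d : ℕ} (hp : p.Prime) (hT : IsMulCommutative T) (ha : a ∈ 𝐂(T))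
    (a2 : a * a = 1) (aT : a ∉ T) (hχ : Chr ⊤ χ) (hc : ∀ t ∈ T, χ (a * t) = χ a)
    (hd : χ 1 - dot T χ (cf1 T) = d) (hP : IsPGroup p P) (h1 : P ≤ 𝐍(T)) (h2 : L ≤ 𝐍(T))
    (h : ¬ p ∣ d) : ∃ μ, Irr T μ ∧ μ ≠ cf1 T ∧ P ≤ inert μ ∧ 2 * (inert μ).relIndex L ≤ d := by
  classical
  obtain ⟨n, hn, e⟩ := (hχ.res (le_top (a := T))).exists_eq_sum_nat
  simp only [dot_res_left] at hn
  have e1 : d = ∑ μ ∈ (irrs T).erase (cf1 T), n μ := by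
    have := congrFun e 1
    rw [res_one, Finset.sum_apply, ← Finset.sum_erase_add _ _ (cf1_mem_irrs T),
      Finset.sum_congr rfl (g := fun μ => (n μ : ℂ)) fun μ hμ => by
        simp [(mem_irrs.1 (Finset.mem_of_mem_erase hμ)).apply_one_of_comm]] at this
    rw [this, hn _ (irr_cf1 T)] at hd
    exact_mod_cast (by simpa using hd.symm : (d : ℂ) = ∑ μ ∈ (irrs T).erase (cf1 T), (n μ : ℂ))
  have ir : ∀ θ ∈ (irrs T).erase (cf1 T), Irr T θ := fun θ k =>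
    mem_irrs.1 (Finset.mem_of_mem_erase k)
  have cl : ∀ {M : Subgroup G}, M ≤ 𝐍(T) → ∀ θ ∈ (irrs T).erase (cf1 T),
      cfclass M T θ ⊆ (irrs T).erase (cf1 T) ∧
        ∑ φ ∈ cfclass M T θ, n φ = (inert θ).relIndex M * n θ := fun hM θ hθ => by
    refine ⟨fun φ k => Finset.mem_erase.2 ⟨fun j => ?_, mem_irrs.2 (irr_of_mem_cfclass k)⟩, ?_⟩
    · obtain ⟨-, g, hg, l⟩ := mem_cfclass'.1 (mem_cfclass_symm (ir θ hθ) k)
      exact (Finset.mem_erase.1 hθ).1 (by rw [l, j, cfJ_cf1 (hM hg)])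
    · rw [← card_cfclass_eq hM (ir θ hθ), ← smul_eq_mul, ← Finset.sum_const]
      refine Finset.sum_congr rfl fun φ k => ?_
      have := dot_res_of_mem_cfclass hM (le_top.trans hχ.cf.le_inert) k
      rw [hn _ (irr_of_mem_cfclass k), hn _ (ir θ hθ)] at this
      exact_mod_cast this
  by_contra! k
  refine h (e1 ▸ dvd_sum_of_classes ir (fun θ hθ => (cl h1 θ hθ).1) n fun θ hθ => ?_)
  rw [(cl h1 θ hθ).2]
  by_cases j : P ≤ inert θ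
  · have h3 := k θ (ir θ hθ) (Finset.mem_erase.1 hθ).1 j
    have h4 := Finset.sum_le_sum_of_subset (f := n) (cl h2 θ hθ).1
    obtain ⟨m, hm⟩ := two_le_mult hT ha a2 aT hχ hc (ir θ hθ) (Finset.mem_erase.1 hθ).1
    rw [hn _ (ir θ hθ)] at hm
    have hm' : n θ = 2 * m := by exact_mod_cast hm
    rw [(cl h2 θ hθ).2, ← e1, hm'] at h4
    rcases m with _ | m
    · simp [hm']
    · nlinarith
  · obtain ⟨i, hi⟩ := pgroup_relIndex hp hP (inert θ)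
    rcases i with _ | i
    · exact absurd (relIndex_eq_one.1 hi) j
    · exact Dvd.dvd.mul_right (hi ▸ dvd_pow_self p i.succ_ne_zero) _

end Cfsg.Agent.Go.BL
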