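import Cfsg.Agent.Go.Big2

/-! Goldschmidt, Part II, case `|B| > q`: the decomposition `A = A₁ × ⋯ × A_k`. -/

set_option autoImplicit false
set_option linter.unusedSectionVars false

namespace Cfsg.Agent.Go

open Subgroup Cfsg Cfsg.Agent.H1 Cfsg.Agent.L Cfsg.Agent.FT Cfsg.Agent.Sg Cfsg.Agent.R1
  Cfsg.Agent.H6
open scoped Pointwise commutatorElement

universe u

variable {G : Type u} [Group G]

structure BCtx (A : Subgroup G) : Prop extends Ctx A where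
  irr : ∀ U ≤ A, 𝐍(A) ≤ 𝐍(U) → U = ⊥ ∨ U = A
  ex : ∃ B, MDat A B
  big : ∀ B, MDat A B → B.relIndex A < #|B|

/-- the factor complementary to `B` -/
def Ai (A B : Subgroup G) : Subgroup G := A ⊓ sInf {B' | MDat A B' ∧ B' ≠ B}

/-- `O(C(g))` -/
abbrev Oc (g : G) : Subgroup G := core {2}ᶜ 𝐂[g]

variable {A B B' B'' D H M U : Subgroup G} {g n a a' b c e : G}

theorem Ai_le (A B : Subgroup G) : Ai A B ≤ A := inf_le_left

theorem Ai_le' (d : MDat A B') (ne : B' ≠ B) : Ai A B ≤ B' := inf_le_right.trans (sInf_le ⟨d, ne⟩)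

theorem le_Ai (h1 : U ≤ A) (h2 : ∀ B', MDat A B' → B' ≠ B → U ≤ B') : U ≤ Ai A B :=
  le_inf h1 (le_sInf fun B' h => h2 B' h.1 h.2)

theorem conj_Ai_le (hn : n ∈ 𝐍(A)) (B : Subgroup G) : n ⋆ Ai A B ≤ Ai A (n ⋆ B) :=
  le_Ai (conj_le_of_mem_norm hn (Ai_le A B)) fun _ d ne => conj_le_iff.2
    (Ai_le' (d.conj (inv_mem hn)) fun e => ne (by rw [← e, conj_inv_conj]))

theorem conj_Ai (hn : n ∈ 𝐍(A)) (B : Subgroup G) : n ⋆ Ai A B = Ai A (n ⋆ B) :=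
  le_antisymm (conj_Ai_le hn B) (le_conj_iff.2 (by simpa using conj_Ai_le (inv_mem hn) (n ⋆ B)))

theorem conj_Oc (n g : G) : n ⋆ Oc g = Oc (n * g * n⁻¹) := by rw [conj_core, conj_cent1]

theorem norm_Oc (h : H ≤ 𝐂[g]) : H ≤ 𝐍(Oc g) := h.trans (core_normal _ _).norm

theorem comm_le_of_sup (sq : Sq A) (h1 : U ≤ A) (h2 : B ≤ A) (h : A ≤ U ⊔ B) (hU : D ≤ 𝐍(U))
    (hB : D ≤ 𝐂(B)) : ⁅A, D⁆ ≤ U :=
  (commutator_mono h le_rfl).trans (comm_sup_left_le (comm_le_left hU)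
    ((comm_eq_bot_iff'.2 hB).le.trans bot_le) le_normalizer (sq_norm sq h2 h1))

variable [Finite G]

namespace BCtx

theorem meet (h : BCtx A) (d : MDat A B) (d' : MDat A B') : B ⊓ B' ≠ ⊥ := d.meet d' (h.big B d)

theorem Ai_inf (h : BCtx A) (d : MDat A B) : Ai A B ⊓ B = ⊥ := by
  rcases h.irr (A ⊓ sInf {B' | MDat A B'}) inf_le_left (le_norm_of_conj fun n hn =>
    le_inf (conj_le_of_mem_norm hn inf_le_left) (le_sInf fun B' d' => conj_le_iff.2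
      (inf_le_right.trans (sInf_le (d'.conj (inv_mem hn)))))) with e | e
  · refine le_bot_iff.1 (le_trans (le_inf (inf_le_left.trans (Ai_le A B)) (le_sInf fun B' d' => ?_)) e.le)
    by_cases e' : B' = B
    · exact e' ▸ inf_le_right
    · exact inf_le_left.trans (Ai_le' d' e')
  · exact absurd (e.ge.trans (inf_le_right.trans (sInf_le d))) d.1.not_le

theorem comm_le_Ai (h : BCtx A) (d : MDat A B) (hD : D ≤ 𝐍(A) ⊓ 𝐂(B)) : ⁅A, D⁆ ≤ Ai A B :=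
  le_Ai (comm_le_left (hD.trans inf_le_left)) fun _ d' ne => comm_le_of_sup h.sq d'.1.le d.1.le
    (d'.sup d h.toCtx ne (h.meet d' d)) (hD.trans (d.norm d' h.toCtx (h.meet d d')))
    (hD.trans inf_le_right)

theorem Ai_sup (h : BCtx A) (d : MDat A B) : A ≤ Ai A B ⊔ B :=
  ((d.1.tr h.toCtx).comm_sup (d.1.q4 h.toCtx) inf_le_left).trans
    (sup_le_sup_right (h.comm_le_Ai d le_rfl) _)

theorem Ai_le_comm (h : BCtx A) (d : MDat A B) (hD : D ≤ 𝐍(A) ⊓ 𝐂(B)) (tr : Tr A B D) :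
    Ai A B ≤ ⁅A, D⁆ := by
  have h1 := hD.trans inf_le_left
  have := sup_inf_modular (h.comm_le_Ai d hD) (Or.inl (sq_norm h.sq d.1.le (comm_le_left h1)))
  rw [inf_comm B, h.Ai_inf d, sup_bot_eq] at this
  exact (le_inf ((Ai_le A B).trans (tr.comm_sup (d.1.q4 h.toCtx) h1)) le_rfl).trans this.le

theorem Ai_le_comp (h : BCtx A) (d : MDat A B) {Y : Type u} [Group Y] [Finite Y] {f : 𝐂[g] →* Y}
    {K : Subgroup Y} (k : DatAt A f K B) (l : Loc g f) (hg : g ∈ A) (g1 : g ≠ 1) :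
    mim f (Ai A B) ≤ K := by
  obtain ⟨t1, t2⟩ := k.tr h.toCtx l hg g1
  refine (mim_mono f (h.Ai_le_comm d (le_inf inf_le_right t2) t1)).trans ?_
  rw [mim_comm f (h.sq.cent1 hg) (inf_le_left.trans (mpre_le _ _))]
  exact (commutator_mono le_rfl ((mim_mono f inf_le_left).trans (mim_mpre_le _ _))).trans
    (comm_le_right ((h.cf l hg g1).norm k.1))

theorem card_Ai (h : BCtx A) (d : MDat A B) : #|Ai A B| = B.relIndex A := by
  have h1 := (setProd_sup (Or.inl (sq_norm h.sq d.1.le (Ai_le A B)))).card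
  rw [le_antisymm (sup_le (Ai_le A B) d.1.le) (h.Ai_sup d), h.Ai_inf d, card_bot, mul_one,
    ← card_mul_relIndex_of_le d.1.le, mul_comm] at h1
  exact (Nat.eq_of_mul_eq_mul_right Nat.card_pos h1).symm

theorem four (h : BCtx A) (d : MDat A B) : 4 ≤ #|Ai A B| := h.card_Ai d ▸ d.1.q4 h.toCtx

theorem Ai_ne (h : BCtx A) (d : MDat A B) : Ai A B ≠ ⊥ := fun e => by
  have := h.four d
  rw [e, card_bot] at this
  omega

theorem sqi (h : BCtx A) (B : Subgroup G) : Sq (Ai A B) := h.sq.of_le (Ai_le A B)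

theorem le_of_all (h : BCtx A) (hH : ∀ B, MDat A B → Ai A B ≤ H) : A ≤ H := by
  obtain ⟨B, d⟩ := h.ex
  rcases h.irr (⨆ B : {B // MDat A B}, Ai A B) (iSup_le fun B => Ai_le A B)
    (le_norm_of_conj fun n hn => conj_le_iff.2 (iSup_le fun B => conj_le_iff.1
      ((conj_Ai_le hn B).trans (le_iSup (fun B : {B // MDat A B} => Ai A B) ⟨_, B.2.conj hn⟩))))
    with e | e
  · exact absurd (le_bot_iff.1 ((le_iSup (fun B : {B // MDat A B} => Ai A B) ⟨B, d⟩).trans e.le))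
      (h.Ai_ne d)
  · exact e.ge.trans (iSup_le fun B => hH B B.2)

theorem le_of_Ai (h : BCtx A) (d : MDat A B) (hH : ∀ B', MDat A B' → B' ≠ B → Ai A B' ≤ H) :
    B ≤ H := by
  have h1 : A ≤ H ⊓ B ⊔ Ai A B := h.le_of_all fun B' d' => by
    by_cases e : B' = B
    · exact e ▸ le_sup_right
    · exact le_sup_of_le_left (le_inf (hH B' d' e) (Ai_le' d (Ne.symm e)))
  have := sup_inf_modular (inf_le_right : H ⊓ B ≤ B)
    (Or.inl (sq_norm h.sq (Ai_le A B) (inf_le_right.trans d.1.le)))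
  rw [h.Ai_inf d, sup_bot_eq] at this
  exact ((le_inf (d.1.le.trans h1) le_rfl).trans this.le).trans inf_le_left

theorem third (h : BCtx A) (d : MDat A B) (d' : MDat A B') :
    ∃ B'', MDat A B'' ∧ B'' ≠ B ∧ B'' ≠ B' := by
  by_contra hc
  push Not at hc
  have h1 := card_le_of_le' (h.le_of_Ai d fun B'' d'' ne => (hc B'' d'' ne ▸ le_rfl : _ ≤ Ai A B'))
  have := h.big B d
  rw [h.card_Ai d', d.idx d'] at h1
  omega

theorem dat_norm (h : BCtx A) (d' : Dat A B') (d : MDat A B) : 𝐍(A) ⊓ 𝐂(B') ≤ 𝐍(Ai A B) :=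
  fun n hn => by
  rw [← conj_eq_self_iff, conj_Ai hn.1]
  by_cases e : n ⋆ B = B
  · rw [e]
  have h1 : Ai A B ⊓ B' = ⊥ := by
    refine le_bot_iff.1 (le_trans (le_inf inf_le_left fun x hx => ?_) (h.Ai_inf d).le)
    have := conj_Ai_le hn.1 B (conj_mem_conj n hx.1)
    rw [← mem_cent.1 hn.2 x hx.2, mul_inv_cancel_right] at this
    exact Ai_le' d (Ne.symm e) this
  have h2 := relIndex_le_of_le_right (H := B') (Ai_le A B) (relIndex_ne_zero' _ _)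
  rw [← inf_relIndex_left, h1, relIndex_bot_left, h.card_Ai d] at h2
  have m : MDat A B' := ⟨d', fun B'' d'' => (d.2 B'' d'').trans h2⟩
  exact absurd (conj_of_mem_norm (m.norm d h.toCtx (h.meet m d) hn)) e

/-- every datum contains a maximal one -/
theorem dat_ge (h : BCtx A) (d' : Dat A B') : ∃ B, MDat A B ∧ B ≤ B' := by
  obtain ⟨B, d, h1⟩ : ∃ B, MDat A B ∧ ¬ Ai A B ≤ B' := by
    by_contra hc
    push Not at hc
    exact d'.not_le (h.le_of_all hc)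
  refine ⟨B, d, h.le_of_Ai d fun B'' d'' ne => by_contra fun h2 => ?_⟩
  have tr := d'.tr h.toCtx
  have k : ∀ C, MDat A C → ¬ Ai A C ≤ B' → ⁅A, 𝐍(A) ⊓ 𝐂(B')⁆ ≤ Ai A C := fun C c h3 =>
    comm_le_of_sup h.sq (Ai_le A C) d'.le ((tr.le_or (Ai_le A C) (h.dat_norm d' c)).resolve_left h3)
      (h.dat_norm d' c) inf_le_right
  exact tr.not_comm (d'.q4 h.toCtx) (((le_inf (k B d h1) ((k B'' d'' h2).trans
    (Ai_le' d (Ne.symm ne)))).trans (h.Ai_inf d).le).trans bot_le)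

section
variable {Y : Type u} [Group Y] [Finite Y] {f : 𝐂[g] →* Y} {K : Subgroup Y}

theorem comp_cent (h : BCtx A) (l : Loc g f) (hg : g ∈ A) (g1 : g ≠ 1) (hK : IsComponent K) :
    ∃ B, MDat A B ∧ mim f B ≤ 𝐂(K) := by
  by_cases c : mim f A ≤ 𝐂(K)
  · obtain ⟨B, d⟩ := h.ex
    exact ⟨B, d, (mim_mono f d.1.le).trans c⟩
  · have k : DatAt A f K (A ⊓ mpre f 𝐂(K)) := ⟨hK, c, rfl⟩
    obtain ⟨B, d, e⟩ := h.dat_ge ⟨g, hg, g1, Y, inferInstance, inferInstance, f, K, l, k⟩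
    exact ⟨B, d, (mim_mono f e).trans k.cent⟩

theorem _root_.Cfsg.Agent.Go.Loc.core_facts (l : Loc g f) (x : 𝐂[g]) (hx : (x : G) * x = 1) :
    mim f (Oc x) ≤ 𝐂[f x] ∧ mim f (Oc x) ≤ 𝐂(core {2} (⊤ : Subgroup Y)) ∧
      ∀ K : Subgroup Y, IsComponent K → f x ∈ 𝐂(K) → mim f (Oc x) ≤ 𝐂(K) := by
  have h1 : mim f (Oc x) ≤ 𝐂[f x] := (mim_mono f (core_le _ _)).trans (mim_cent1_le f x)
  have h2 : 𝐂[f x] ≤ 𝐍(mim f (Oc x)) := l.cent1 x hx ▸ mim_le_norm f (norm_Oc le_rfl)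
  have o := odd_mim (odd_core 𝐂[(x : G)]) f
  exact ⟨h1, cent_two (by rw [← map_mul, show x * x = 1 from Subtype.ext hx, map_one]) o h1 h2,
    fun K hK hc => comp_cent_of_sol hK (sol_of_odd o) ((le_cent1_iff.2 hc).trans h2)⟩

end

theorem star (h : BCtx A) (hc : c ∈ A) (c1 : c ≠ 1) (ha : a ∈ A) (ha' : a' ∈ A)
    (hB : ∀ B, MDat A B → a ∈ B ∨ a' ∈ B) : Oc a ⊓ Oc a' ⊓ 𝐂[c] ≤ Oc c := by
  have l := loc_fq c
  obtain ⟨-, p2, p3⟩ := l.core_facts ⟨a, h.sq.cent1 hc ha⟩ (h.sq a ha)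
  obtain ⟨-, -, q3⟩ := l.core_facts ⟨a', h.sq.cent1 hc ha'⟩ (h.sq a' ha')
  refine ((mim_eq_bot_iff inf_le_right).1 ?_).trans l.ker.le
  rw [mim_inf_dom]
  refine odd_triv l.core_bot (odd_mim (odd_of_le (odd_core _) inf_le_left) _)
    ((mim_mono _ inf_le_left).trans p2) fun K hK => ?_
  obtain ⟨B, d, e⟩ := h.comp_cent l hc c1 hK
  rcases hB B d with m | m
  · exact (mim_mono _ inf_le_left).trans (p3 K hK (e (mem_mim_of_mem _ _ m)))
  · exact (mim_mono _ inf_le_right).trans (q3 K hK (e (mem_mim_of_mem _ _ m)))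

theorem star2 (h : BCtx A) (hc : c ∈ A) (c1 : c ≠ 1) (ha : a ∈ A) (hU : U ≤ A)
    (hB : ∀ B, MDat A B → a ∈ B ∨ U ≤ B) : ⁅Oc a ⊓ 𝐂[c], U⁆ ≤ Oc c := by
  have l := loc_fq c
  obtain ⟨p1, p2, p3⟩ := l.core_facts ⟨a, h.sq.cent1 hc ha⟩ (h.sq a ha)
  have hUc := hU.trans (h.sq.cent1 hc)
  refine ((mim_eq_bot_iff (comm_le_of_le inf_le_right hUc)).1 ?_).trans l.ker.le
  rw [mim_comm _ inf_le_right hUc, mim_inf_dom]
  have h1 : ⁅mim (fq c) (Oc a), mim (fq c) U⁆ ≤ mim (fq c) (Oc a) :=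
    comm_le_left (mim_le_norm _ (norm_Oc (hU.trans (h.sq.cent1 ha))))
  refine odd_triv l.core_bot (odd_of_le (odd_mim (odd_core _) _) h1) (h1.trans p2) fun K hK => ?_
  by_cases e : fq c ⟨a, h.sq.cent1 hc ha⟩ ∈ 𝐂(K)
  · exact h1.trans (p3 K hK e)
  have k : ∀ K', IsComponent K' → fq c ⟨a, h.sq.cent1 hc ha⟩ ∉ 𝐂(K') → mim (fq c) U ≤ 𝐂(K') :=
    fun K' hK' e' => by
      obtain ⟨B, d, e''⟩ := h.comp_cent l hc c1 hK'
      exact (mim_mono _ ((hB B d).resolve_left fun m => e' (e'' (mem_mim_of_mem _ _ m)))).trans e''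
  refine commutator_le.2 fun r hr x hx => ?_
  rw [commutatorElement_def]
  refine mul_mem ?_ (inv_mem (k K hK e hx))
  have := k _ (comp_conj hK r⁻¹) (fun e' => e ?_) hx
  · rwa [← conj_cent, mem_conj, inv_inv] at this
  · rwa [← conj_cent, mem_conj, inv_inv, mem_cent1.1 (p1 hr), mul_inv_cancel_right] at e'

theorem cent_le (h : BCtx A) (hN : 𝐍(A) ≤ M) (hC : ∀ B, MDat A B → 𝐂(B) ≤ M) (ha : a ∈ A)
    (a1 : a ≠ 1) (hO : Oc a ≤ M) : 𝐂[a] ≤ M := by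
  have l := loc_fq a
  have hA := h.sq.cent1 ha
  refine ((mim_le_mim_iff (f := fq a) le_rfl (inf_le_right : M ⊓ _ ≤ _)).1 ?_).trans
    (sup_le inf_le_left (l.ker.le.trans hO))
  rw [mim_inf_dom, l.top, ← (h.cf l ha a1).top]
  refine sup_le (layer_le_iff.2 fun K hK => ?_) ?_
  · obtain ⟨B, d, e⟩ := h.comp_cent l ha a1 hK
    rw [← le_cent_comm, ← l.cent (h.sq.two.to_le d.1.le) (d.1.le.trans hA)] at e
    exact e.trans (mim_mono _ (hC B d))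
  · exact ((le_inf (le_top.trans l.top.ge) le_rfl).trans (lift h.sc hA le_rfl)).trans
      (mim_mono _ (inf_le_right.trans hN))

theorem fin (h : BCtx A) (hN : 𝐍(A) ≤ M) (hC : ∀ B, MDat A B → 𝐂(B) ≤ M) (d : MDat A B)
    (hO : ∀ e ∈ Ai A B, e ≠ 1 → Oc e ≤ M) (ha : a ∈ A) (a1 : a ≠ 1) : 𝐂[a] ≤ M :=
  h.cent_le hN hC ha a1 (gen1 (h.sqi B) (h.four d) (norm_Oc ((Ai_le A B).trans (h.sq.cent1 ha)))
    (odd_core _) fun e he e1 => inf_le_right.trans (h.cent_le hN hC (Ai_le A B he) e1 (hO e he e1)))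

end BCtx

end Cfsg.Agent.Go
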