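import Cfsg.Agent.Go.Big3

/-! Goldschmidt, Part II, case `|B| > q`: the signalizer functor and the conclusion. -/

set_option autoImplicit false
set_option linter.unusedSectionVars false

namespace Cfsg.Agent.Go

open Subgroup Cfsg Cfsg.Agent.H1 Cfsg.Agent.L Cfsg.Agent.FT Cfsg.Agent.Sg Cfsg.Agent.R1
  Cfsg.Agent.H6
open scoped Pointwise commutatorElement

universe u

variable {G : Type u} [Group G]

def th (U : Subgroup G) (a : G) : Subgroup G := ⨆ g : {g // g ∈ U ∧ g ≠ 1}, Oc a ⊓ Oc g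

def Wp (U V : Subgroup G) : Subgroup G := ⨆ e : {e // e ∈ U ∧ e ≠ 1}, th V e

/-- the normal closure of `A_B` in `C(B)` -/
def Mi (A B : Subgroup G) : Subgroup G := ⨆ x : 𝐂(B), (x : G) ⋆ Ai A B

variable {A B B' B'' C C' H M O U V : Subgroup G} {g n a b c e y : G}

theorem le_th (hg : g ∈ U) (g1 : g ≠ 1) : Oc a ⊓ Oc g ≤ th U a :=
  le_iSup (fun g : {g // g ∈ U ∧ g ≠ 1} => Oc a ⊓ Oc g) ⟨g, hg, g1⟩

theorem th_le_of (h : ∀ g ∈ U, g ≠ 1 → Oc a ⊓ Oc g ≤ H) : th U a ≤ H :=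
  iSup_le fun g => h g g.2.1 g.2.2

theorem th_le (U : Subgroup G) (a : G) : th U a ≤ Oc a := th_le_of fun _ _ _ => inf_le_left

theorem le_Wp (he : e ∈ U) (e1 : e ≠ 1) : th V e ≤ Wp U V :=
  le_iSup (fun e : {e // e ∈ U ∧ e ≠ 1} => th V e) ⟨e, he, e1⟩

theorem Wp_le_of (h : ∀ e ∈ U, e ≠ 1 → th V e ≤ H) : Wp U V ≤ H := iSup_le fun e => h e e.2.1 e.2.2

theorem Wp_comm_le (U V : Subgroup G) : Wp U V ≤ Wp V U :=
  Wp_le_of fun _ he e1 => th_le_of fun _ hg g1 =>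
    (inf_comm _ _).le.trans ((le_th he e1).trans (le_Wp hg g1))

theorem Wp_comm (U V : Subgroup G) : Wp U V = Wp V U := le_antisymm (Wp_comm_le U V) (Wp_comm_le V U)

theorem conj_Wp (n : G) (U V : Subgroup G) : n ⋆ Wp U V ≤ Wp (n ⋆ U) (n ⋆ V) :=
  conj_le_iff.2 (Wp_le_of fun e he e1 => th_le_of fun g hg g1 => conj_le_iff.1 (by
    rw [conj_inf, conj_Oc, conj_Oc]
    exact (le_th (conj_mem_conj n hg) (by simpa using g1)).trans
      (le_Wp (conj_mem_conj n he) (by simpa using e1))))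

theorem norm_Wp (h1 : H ≤ 𝐍(U)) (h2 : H ≤ 𝐍(V)) : H ≤ 𝐍(Wp U V) := le_norm_of_conj fun n hn => by
  simpa only [conj_of_mem_norm (h1 hn), conj_of_mem_norm (h2 hn)] using conj_Wp n U V

theorem le_Mi {x : G} (hx : x ∈ 𝐂(B)) : x ⋆ Ai A B ≤ Mi A B :=
  le_iSup (fun x : 𝐂(B) => (x : G) ⋆ Ai A B) ⟨x, hx⟩

theorem Mi_le_of (h : ∀ x ∈ 𝐂(B), x ⋆ Ai A B ≤ H) : Mi A B ≤ H := iSup_le fun x => h x x.2

theorem Ai_le_Mi (A B : Subgroup G) : Ai A B ≤ Mi A B := by simpa using le_Mi (A := A) (one_mem 𝐂(B))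

theorem cent_le_norm_Mi (A B : Subgroup G) : 𝐂(B) ≤ 𝐍(Mi A B) := le_norm_of_conj fun n hn =>
  conj_le_iff.2 (Mi_le_of fun x hx => conj_le_iff.1 (by rw [← mul_conj]; exact le_Mi (mul_mem hn hx)))

theorem conj_Mi (hn : n ∈ 𝐍(A)) (B : Subgroup G) : n ⋆ Mi A B ≤ Mi A (n ⋆ B) :=
  conj_le_iff.2 (Mi_le_of fun x hx => conj_le_iff.1 (by
    have : n * x = n * x * n⁻¹ * n := by group
    rw [← mul_conj, this, mul_conj, conj_Ai hn]
    exact le_Mi (by rw [← conj_cent]; exact conj_mem_conj n hx)))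

theorem mem_of_invol (h : M ≤ 𝐂(O)) (ho : Odd #|O|) (hy : y ∈ M ⊔ O) (y2 : y * y = 1) : y ∈ M := by
  obtain ⟨m, hm, o, h1, e⟩ := (setProd_sup (Or.inr (le_norm_of_le_cent h))).2.2 y hy
  obtain ⟨k, hk⟩ := ho
  have h2 : o ^ #|O| = 1 := orderOf_dvd_iff_pow_eq_one.1 (O.orderOf_dvd_natCard h1)
  have h3 : y ^ #|O| = y := by rw [hk, pow_succ, pow_mul, sq, y2, one_pow, one_mul]
  rw [← h3, e, Commute.mul_pow (mem_cent.1 (h hm) o h1).symm, h2, mul_one]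
  exact pow_mem hm _

variable [Finite G]

theorem dec2 (hU : Sq U) (ho : Odd #|O|) (hn : U ≤ 𝐍(O)) (h1 : ⁅O, U⁆ ≤ H) (h2 : O ⊓ 𝐂(U) ≤ H) :
    O ≤ H :=
  (commutator_sup_centralizer hn (hU.cop ho) (Or.inr (sol_of_odd ho))).ge.trans (sup_le h1 h2)

namespace BCtx

theorem s1 (h : BCtx A) (d : MDat A B) (ha : a ∈ B) (hg : g ∈ Ai A B) (hc : c ∈ A) (c1 : c ≠ 1) :
    Oc a ⊓ Oc g ⊓ 𝐂[c] ≤ Oc c :=
  h.star hc c1 (d.1.le ha) (Ai_le A B hg) fun B' d' => by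
    by_cases e : B' = B
    · exact Or.inl (e ▸ ha)
    · exact Or.inr (Ai_le' d' e hg)

theorem s2 (h : BCtx A) (d : MDat A B) (ha : a ∈ B) (hc : c ∈ A) (c1 : c ≠ 1) :
    ⁅Oc a ⊓ 𝐂[c], Ai A B⁆ ≤ Oc a ⊓ Oc c :=
  le_inf ((commutator_mono inf_le_left le_rfl).trans
    (comm_le_left (norm_Oc ((Ai_le A B).trans (h.sq.cent1 (d.1.le ha))))))
    (h.star2 hc c1 (d.1.le ha) (Ai_le A B) fun B' d' => by
      by_cases e : B' = B
      · exact Or.inl (e ▸ ha)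
      · exact Or.inr (Ai_le' d' e))

theorem nO (h : BCtx A) (ha : a ∈ A) : A ≤ 𝐍(Oc a) := norm_Oc (h.sq.cent1 ha)

theorem th_norm (h : BCtx A) (hU : U ≤ A) (ha : a ∈ A) : A ≤ 𝐍(th U a) :=
  iSup_norm fun g => le_normalizer_inf (h.nO ha) (h.nO (hU g.2.1))

theorem comm_le_th (h : BCtx A) (d : MDat A B) (ha : a ∈ B) : ⁅Oc a, Ai A B⁆ ≤ th (Ai A B) a :=
  have n := (Ai_le A B).trans (h.nO (d.1.le ha))
  comm_gen (h.sqi B) (h.four d) (h.sqi B).cent (odd_core _) n n ((h.sqi B).cop (odd_core _))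
    fun _ hb b1 => (h.s2 d ha (Ai_le A B hb) b1).trans (le_th hb b1)

theorem th_cent (h : BCtx A) (d : MDat A B) (ha : a ∈ B) (hg : g ∈ Ai A B) (g1 : g ≠ 1) :
    th (Ai A B) a ⊓ 𝐂(Ai A B) ≤ Oc g := by
  have hU := Ai_le A B
  have n := hU.trans (h.nO (d.1.le ha))
  have k : ∀ g' ∈ Ai A B, Oc a ⊓ Oc g' ⊓ 𝐂(Ai A B) ≤ Oc a ⊓ Oc g ⊓ 𝐂(Ai A B) := fun g' hg' =>
    le_inf (le_inf (inf_le_left.trans inf_le_left) ((inf_le_inf_left _ (cent_le_cent1 hg)).trans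
      (h.s1 d ha hg' (hU hg) g1))) inf_le_right
  have h1 : th (Ai A B) a ≤ Oc a ⊓ Oc g ⊓ 𝐂(Ai A B) ⊔ ⁅Oc a, Ai A B⁆ := th_le_of fun g' hg' _ =>
    dec2 (h.sqi B) (odd_of_le (odd_core _) inf_le_left)
      (le_normalizer_inf n (hU.trans (h.nO (hU hg'))))
      (le_sup_of_le_right (commutator_mono inf_le_left le_rfl)) (le_sup_of_le_left (k g' hg'))
  have h2 : ⁅Oc a, Ai A B⁆ ⊓ 𝐂(Ai A B) ≤ Oc a ⊓ Oc g ⊓ 𝐂(Ai A B) :=
    cent_comm_le (h.sqi B) (h.four d) (odd_core _) n (inf_le_inf_right _ inf_le_left)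
      (le_normalizer_inf (le_normalizer_inf (inf_le_left.trans le_normalizer)
        (norm_Oc (inf_le_right.trans (cent_le_cent1 hg)))) (inf_le_right.trans le_normalizer))
      fun c hc c1 => (inf_le_inf_right _ (h.s2 d ha (hU hc) c1)).trans (k c hc)
  refine (inf_le_inf_right _ h1).trans ?_
  rw [sup_inf_cent (le_norm_of_le_cent (le_cent_symm inf_le_right)) (right_le_norm_comm _ _)
    ((inf_le_left.trans inf_le_left).trans (left_le_norm_comm _ _)) (h.sqi B).two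
    (odd_of_le (odd_core _) (comm_le_left n))]
  exact (sup_le inf_le_left h2).trans (inf_le_left.trans inf_le_right)

theorem th_cent1 (h : BCtx A) (d : MDat A B) (ha : a ∈ B) (hg : g ∈ Ai A B) (g1 : g ≠ 1) :
    th (Ai A B) a ⊓ 𝐂[g] ≤ Oc g :=
  have hU := Ai_le A B
  dec2 (h.sqi B) (odd_of_le (odd_core _) (inf_le_left.trans (th_le _ _)))
    (le_normalizer_inf (hU.trans (h.th_norm hU (d.1.le ha)))
      (((h.sqi B).cent1 hg).trans le_normalizer))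
    ((commutator_mono (inf_le_inf_right _ (th_le _ _)) le_rfl).trans
      ((h.s2 d ha (hU hg) g1).trans inf_le_right))
    ((inf_le_inf_right _ inf_le_left).trans (h.th_cent d ha hg g1))

theorem sixteen (h : BCtx A) (d : MDat A B) : 16 ≤ #|B| := by
  obtain ⟨B', d', n1, -⟩ := h.third d d
  obtain ⟨B'', d'', n2, n3⟩ := h.third d d'
  have h1 := (setProd_sup (Or.inl (sq_norm h.sq (Ai_le A B'') (Ai_le A B')))).card
  rw [le_bot_iff.1 ((inf_le_inf_left _ (Ai_le' d' (Ne.symm n3))).trans (h.Ai_inf d').le), card_bot,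
    mul_one] at h1
  have h2 := card_le_of_le' (sup_le (Ai_le' d (Ne.symm n1)) (Ai_le' d (Ne.symm n2)))
  have := h.four d'
  have := h.four d''
  nlinarith

theorem sf (h : BCtx A) (d : MDat A B) : SF B (th (Ai A B)) where
  sq := h.sq.of_le d.1.le
  big := h.sixteen d
  odd _ _ _ := odd_of_le (odd_core _) (th_le _ _)
  cent _ _ _ := (th_le _ _).trans (core_le _ _)
  norm _ ha _ := d.1.le.trans (h.th_norm (Ai_le A B) (d.1.le ha))
  bal a ha _ b hb b1 := gen1 (h.sqi B) (h.four d) ((Ai_le A B).trans (le_normalizer_inf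
      (h.th_norm (Ai_le A B) (d.1.le ha)) ((h.sq.cent1 (d.1.le hb)).trans le_normalizer)))
    (odd_of_le (odd_core _) (inf_le_left.trans (th_le _ _))) fun g hg g1 => by
      have h1 : th (Ai A B) a ⊓ 𝐂[b] ⊓ 𝐂[g] ≤ Oc g :=
        (inf_le_inf_right _ inf_le_left).trans (h.th_cent1 d ha hg g1)
      exact (le_inf ((le_inf (le_inf (inf_le_left.trans (inf_le_left.trans (th_le _ _))) h1)
        (inf_le_left.trans inf_le_right)).trans (h.s1 d ha hg (d.1.le hb) b1)) h1).trans (le_th hg g1)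

theorem exists_W (h : BCtx A) (d : MDat A B) :
    ∃ W : Subgroup G, Odd #|W| ∧ ∀ B', MDat A B' → B' ≠ B → Wp (Ai A B') (Ai A B) = W := by
  obtain ⟨W, h1, h2⟩ := (h.sf d).complete
  refine ⟨W, h1.odd, fun B' d' ne => le_antisymm (Wp_le_of fun e he e1 => h2 _
    ((h.sf d).mem (Ai_le' d ne.symm he) e1)) ?_⟩
  exact h1.le_of (h.sf d).sq (Ai_le' d ne.symm) (h.four d') fun _ he e1 => le_Wp he e1

theorem Wp_eq (h : BCtx A) (d : MDat A B) (d' : MDat A B') (ne : B ≠ B') (c : MDat A C)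
    (c' : MDat A C') (ne' : C ≠ C') : Wp (Ai A B) (Ai A B') = Wp (Ai A C) (Ai A C') := by
  have k : ∀ {X Y Z}, MDat A X → MDat A Y → MDat A Z → X ≠ Z → Y ≠ Z →
      Wp (Ai A X) (Ai A Z) = Wp (Ai A Y) (Ai A Z) := fun x y z n1 n2 => by
    obtain ⟨W, -, h1⟩ := h.exists_W z
    rw [h1 _ x n1, h1 _ y n2]
  by_cases e : C = B'
  · subst e
    rw [k d c' c ne ne'.symm, Wp_comm]
  · rw [k d c d' ne e, Wp_comm, k d' c' c (Ne.symm e) ne'.symm, Wp_comm]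

theorem norm_W (h : BCtx A) (d : MDat A B) (d' : MDat A B') (ne : B ≠ B') (ha : a ∈ A) (a1 : a ≠ 1) :
    𝐂[a] ≤ 𝐍(Wp (Ai A B) (Ai A B')) := by
  have k : ∀ {X Y}, MDat A X → MDat A Y → X ≠ Y → 𝐂(Ai A X) ⊓ 𝐂(Ai A Y) ≤ 𝐍(Wp (Ai A B) (Ai A B')) :=
    fun x y n => h.Wp_eq d d' ne x y n ▸
      norm_Wp (le_norm_of_le_cent inf_le_left) (le_norm_of_le_cent inf_le_right)
  refine h.fin (le_norm_of_conj fun n hn => (conj_Wp n _ _).trans ?_) (fun C c => ?_) d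
    (fun e he e1 => ?_) ha a1
  · rw [conj_Ai hn, conj_Ai hn]
    exact (h.Wp_eq (d.conj hn) (d'.conj hn) (mt conj_eq_conj_iff.1 ne) d d' ne).le
  · obtain ⟨X, x, n1, -⟩ := h.third c c
    obtain ⟨Y, y, n2, n3⟩ := h.third c x
    exact (le_inf (cent_anti (Ai_le' c n1.symm)) (cent_anti (Ai_le' c n2.symm))).trans (k x y n3.symm)
  · obtain ⟨X, x, n1, n2⟩ := h.third d d'
    have w : ∀ {Z}, MDat A Z → B ≠ Z → ⁅Oc e, Ai A Z⁆ ≤ 𝐍(Wp (Ai A B) (Ai A B')) := fun z n =>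
      (((h.comm_le_th z (Ai_le' z n.symm he)).trans (le_Wp he e1)).trans
        (h.Wp_eq d z n d d' ne).le).trans le_normalizer
    have n := h.nO (Ai_le A B he)
    refine dec2 (h.sqi X) (odd_core _) ((Ai_le A X).trans n) (w x n1.symm) ?_
    refine dec2 (h.sqi B') (odd_of_le (odd_core _) inf_le_left) (le_norm_subcent
      ((Ai_le A B').trans n) (sq_norm h.sq (Ai_le _ _) (Ai_le _ _)))
      ((commutator_mono inf_le_left le_rfl).trans (w d' ne)) ?_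
    exact (inf_le_inf_right _ inf_le_right).trans (k x d' n2)

theorem Oc_le_cent (h : BCtx A) (w : ∀ B B', MDat A B → MDat A B' → B ≠ B' → Wp (Ai A B) (Ai A B') = ⊥)
    (d : MDat A B) (he : e ∈ Ai A B) (e1 : e ≠ 1) : Oc e ≤ 𝐂(B) :=
  le_cent_symm (h.le_of_Ai d fun B' d' ne => comm_eq_bot_iff'.1 (le_bot_iff.1
    (((h.comm_le_th d' (Ai_le' d' ne he)).trans (le_Wp he e1)).trans (w B B' d d' ne.symm).le)))

theorem Mi_le (h : BCtx A) (d : MDat A B) : Mi A B ≤ 𝐂(B) := Mi_le_of fun _ hx =>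
  conj_le_of_mem hx ((Ai_le A B).trans (le_cent_of_le h.sq.cent d.1.le))

theorem norm_Mi (h : BCtx A) (w : ∀ B B', MDat A B → MDat A B' → B ≠ B' → Wp (Ai A B) (Ai A B') = ⊥)
    (d : MDat A B) (d' : MDat A B') : 𝐂(B) ≤ 𝐍(Mi A B') := by
  by_cases ne : B = B'
  · exact ne ▸ cent_le_norm_Mi A B
  obtain ⟨C, c, n1, n2⟩ := h.third d d'
  obtain ⟨g, hg, g1⟩ := exists_mem_ne_one (h.Ai_ne c)
  have gB := Ai_le' d n1.symm hg
  have gB' := Ai_le' d' n2.symm hg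
  have gA := Ai_le A C hg
  have l := loc_fq g
  have hA := h.sq.cent1 gA
  obtain ⟨K, k⟩ := d'.at h.toCtx gB' g1 l
  have h0 := h.Ai_le_comp d' k l gA g1
  have h0' : ¬ mim (fq g) (Ai A B') ≤ 𝐂(K) := fun e => h.Ai_ne d' (le_bot_iff.1
    ((le_inf le_rfl (k.le_of hA (Ai_le A B') e)).trans (h.Ai_inf d').le))
  have h1 : mim (fq g) 𝐂(B') ≤ 𝐍(K) := fun y hy => conj_eq_self_iff.1 (by_contra fun e => by
    refine k.2.1 ((h.cf l gA g1).cent_conj (y := y) k.1 ((mim_mono _ (h.Ai_sup d')).trans ?_))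
    rw [mim_sup _ ((Ai_le A B').trans hA) (d'.1.le.trans hA)]
    refine sup_le (h0.trans (comp_ne (comp_conj k.1 y) k.1 e)) ?_
    rw [← conj_cent, ← conj_of_mem_norm (cent_le_norm _ (mim_le_cent (fq g) le_rfl hy))]
    exact conj_mono y k.cent)
  have h2 : mim (fq g) 𝐂(B) ≤ 𝐍(K) := fun y hy => conj_eq_self_iff.1 (by_contra fun e => by
    refine h0' (le_trans ?_ (comp_ne k.1 (comp_conj k.1 y) (Ne.symm e)))
    rw [← conj_of_mem_norm (cent_le_norm _ (mim_le_cent (fq g) (cent_anti (Ai_le' d ne)) hy))]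
    exact conj_mono y h0)
  have c1 := cent_le_cent1 gB
  have c2 := cent_le_cent1 gB'
  have MC := (h.Mi_le d').trans c2
  have h3 : ∀ x ∈ 𝐂(B'), mim (fq g) (x ⋆ Ai A B') ≤ K := fun x hx => by
    rw [mim_conj (fq g) ⟨x, c2 hx⟩]
    exact conj_le_of_mem_norm (h1 (mem_mim_of_mem _ ⟨x, c2 hx⟩ hx)) h0
  have h4 : K ≤ mim (fq g) (Mi A B') := (comp_le_or k.1 ((k.comp_le h.toCtx l gA).trans
    (mim_le_norm _ (cent_le_norm_Mi A B')))).resolve_right fun e =>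
      h0' ((mim_mono _ (Ai_le_Mi A B')).trans e)
  have h5 : Mi A B' ≤ 𝐂(Oc g) := Mi_le_of fun x hx =>
    conj_le_of_mem_norm (le_norm_cent (norm_Oc c2) hx)
      (le_cent_symm ((h.Oc_le_cent w c hg g1).trans (cent_anti (Ai_le' c n2))))
  refine le_norm_of_conj fun x hx => conj_le_iff.2 (Mi_le_of fun x' hx' => conj_le_iff.1 fun y hy =>
    mem_of_invol h5 (odd_core _) ?_ ?_)
  · refine (l.ker ▸ (mim_le_mim_iff (conj_le_of_mem (c1 hx) ((le_Mi hx').trans MC)) MC).1 ?_) hy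
    rw [mim_conj (fq g) ⟨x, c1 hx⟩]
    exact (conj_le_of_mem_norm (h2 (mem_mim_of_mem _ ⟨x, c1 hx⟩ hx)) (h3 x' hx')).trans h4
  · rw [← mul_conj] at hy
    obtain ⟨u, hu, rfl⟩ := mem_conj'.1 hy
    have := h.sqi B' u hu
    calc _ = x * x' * (u * u) * (x * x')⁻¹ := by group
      _ = 1 := by rw [this]; group

theorem done [IsSimpleGroup G] (h : BCtx A) :
    ∃ M : Subgroup G, M ≠ ⊤ ∧ ∀ a ∈ A, a ≠ 1 → 𝐂[a] ≤ M := by
  have sg : ∀ X : Subgroup G, ⊤ ≤ 𝐍(X) → X ≠ ⊥ → X = ⊤ := fun X h1 h2 =>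
    (IsSimpleGroup.eq_bot_or_eq_top_of_normal X (NormalIn.top_iff.1 ⟨le_top, h1⟩)).resolve_left h2
  by_cases w : ∀ B B', MDat A B → MDat A B' → B ≠ B' → Wp (Ai A B) (Ai A B') = ⊥
  · obtain ⟨B, d⟩ := h.ex
    have hC : ∀ C, MDat A C → 𝐂(C) ≤ 𝐍(⨆ B : {B // MDat A B}, Mi A B) := fun C c =>
      iSup_norm fun B => h.norm_Mi w c B.2
    have m1 : Mi A B ≠ ⊥ := ne_bot_of_le (h.Ai_ne d) (Ai_le_Mi A B)
    refine ⟨𝐍(⨆ B : {B // MDat A B}, Mi A B), fun e => ?_, fun a ha a1 => h.fin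
      (le_norm_of_conj fun n hn => conj_le_iff.2 (iSup_le fun C => conj_le_iff.1 ((conj_Mi hn C).trans
        (le_iSup (fun B : {B // MDat A B} => Mi A B) ⟨_, C.2.conj hn⟩)))) hC d
      (fun e he e1 => (h.Oc_le_cent w d he e1).trans (hC B d)) ha a1⟩
    have h1 := sg _ e.ge (ne_bot_of_le m1 (le_iSup (fun B : {B // MDat A B} => Mi A B) ⟨B, d⟩))
    have h2 := sg _ (h1.ge.trans (iSup_le fun C => (h.Mi_le C.2).trans (h.norm_Mi w C.2 d))) m1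
    have h3 := sg B (le_norm_of_le_cent (h2.ge.trans (h.Mi_le d))) d.1.ne_bot
    exact d.1.not_le (le_top.trans h3.ge)
  · push Not at w
    obtain ⟨B, B', d, d', ne, w⟩ := w
    refine ⟨_, fun e => ?_, fun a ha a1 => h.norm_W d d' ne ha a1⟩
    obtain ⟨W, o, h1⟩ := h.exists_W d'
    have h2 := sg _ e.ge w
    rw [h1 B d ne] at h2
    exact d.1.not_le ((le_inf (le_top.trans h2.ge) le_rfl).trans
      ((inf_eq_bot_of_two h.sq.two o).le.trans bot_le))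

end BCtx

/-- Goldschmidt, Part II, the case `|B| > q` -/
theorem big [IsSimpleGroup G] (h : Ctx A) (irr : ∀ U ≤ A, 𝐍(A) ≤ 𝐍(U) → U = ⊥ ∨ U = A)
    (d : MDat A B) (hb : B.relIndex A < #|B|) :
    ∃ M : Subgroup G, M ≠ ⊤ ∧ ∀ a ∈ A, a ≠ 1 → 𝐂[a] ≤ M :=
  BCtx.done ⟨h, irr, ⟨B, d⟩, fun _ d' => by rwa [d.idx d', d.card d']⟩

end Cfsg.Agent.Go
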