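import Cfsg.Agent.Go.I

/-! Interface for the rank two endgame of Goldschmidt's theorem (notes/goldschmidt.md, End2). -/

set_option autoImplicit false

namespace Cfsg.Agent.Go

open Subgroup Cfsg Cfsg.Agent.H1 Cfsg.Agent.L Cfsg.Agent.FT Cfsg.Agent.Sg Cfsg.Agent.R1
open scoped Pointwise commutatorElement

section
variable {X : Type*} [Group X]

/-- `T_a = [O(C(a)), A]` -/
def TT (A : Subgroup X) (a : X) : Subgroup X := ⁅core {2}ᶜ 𝐂[a], A⁆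

/-- the normal closure of `A` in `Y` -/
def KK (A Y : Subgroup X) : Subgroup X := ⨆ y ∈ Y, y ⋆ A

/-- the TI configuration -/
structure TIc (A : Subgroup X) : Prop where
  sc : SC A
  sq : Sq A
  card : #|A| = 4
  tr : TrN A
  idx : Odd (𝐂(A)).index
  nd : ¬ Done A
  inv : ∀ a ∈ A, ∀ b ∈ A, a ≠ 1 → b ≠ 1 → b ≠ a → ∀ t ∈ TT A a, b * t * b⁻¹ = t⁻¹
  dec : ∀ a ∈ A, a ≠ 1 → 𝐂[a] ≤ TT A a ⊔ 𝐂(A)
  ti : ∀ a ∈ A, a ≠ 1 → ∀ Y ≤ TT A a, Y ≠ ⊥ → 𝐍(Y) ≤ 𝐂[a]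
  odd : ∀ W : Subgroup X, Odd #|W| → A ≤ 𝐍(W) → ∃ x ∈ A, x ≠ 1 ∧ W ≤ 𝐂[x]

end

/-- proper subgroups meeting two of the `T_x`: `A` is a Sylow subgroup of a component -/
class St4 : Prop where
  main : ∀ {G : Type} [Group G] [Finite G] [IsSimpleGroup G] {A Y : Subgroup G} {a b : G},
    IH (Nat.card G) → TIc A → Y ≠ ⊤ → A ≤ Y → a ∈ A → b ∈ A → a ≠ 1 → b ≠ 1 → a ≠ b →
    TT A a ⊓ Y ≠ ⊥ → TT A b ⊓ Y ≠ ⊥ →
    (∃ ρ ∈ KK A Y ⊓ 𝐍(A), ρ ∉ 𝐂(A)) ∧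
      ∀ R ≤ Y, IsPGroup 2 R → A ≤ R → R ≤ A ⊔ 𝐂(KK A Y)

/-- case `α`: no involution outside `A` centralises `A` -/
class EndA : Prop where
  main : ∀ {G : Type} [Group G] [Finite G] [IsSimpleGroup G] {A : Subgroup G},
    IH (Nat.card G) → TIc A → ∀ u ∈ 𝐂(A), u * u = 1 → u ∈ A

/-- case `β` -/
class EndB : Prop where
  main : ∀ {G : Type} [Group G] [Finite G] [IsSimpleGroup G] {A : Subgroup G},
    IH (Nat.card G) → TIc A → (∀ u ∈ 𝐂(A), u * u = 1 → u ∈ A) → L.IsSylowIn 2 A ⊤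

theorem end2 [EndA] [EndB] {G : Type} [Group G] [Finite G] [IsSimpleGroup G] {A : Subgroup G}
    (ih : IH (Nat.card G)) (h : TIc A) : AB A :=
  ⟨EndB.main ih h (EndA.main ih h), h.tr, Or.inl h.card⟩

end Cfsg.Agent.Go
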