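import Cfsg.Agent.Go.E0
import Cfsg.Agent.H6.U64
import Cfsg.Agent.FT.CFBasic3

/-! Interface for case `β` of the rank two endgame (notes/goldschmidt.md, EndB). -/

set_option autoImplicit false

namespace Cfsg.Agent.Go

open Subgroup Cfsg Cfsg.Agent.H1 Cfsg.Agent.L Cfsg.Agent.FT Cfsg.Agent.Sg Cfsg.Agent.R1
open scoped Pointwise commutatorElement

section
variable {X : Type*} [Group X]

/-- Sylow `2`-subgroup of type `U₃(4)` -/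
structure Bs (A S : Subgroup X) (ρ : X) : Prop extends TIc A where
  om : ∀ u ∈ 𝐂(A), u * u = 1 → u ∈ A
  syl : L.IsSylowIn 2 S ⊤
  le : A ≤ S
  iso : Nonempty (S ≃* H6.U64)
  ρA : ρ ∈ 𝐍(A)
  ρS : ρ ∈ 𝐍(S)
  ρC : ρ ∉ 𝐂(A)
  prod : ∀ s ∈ S, s * (ρ * s * ρ⁻¹) * (ρ * (ρ * s * ρ⁻¹) * ρ⁻¹) = 1
  comm : ∀ s ∈ S, s * (ρ * s * ρ⁻¹) = ρ * s * ρ⁻¹ * s
  fix : ∀ c ∈ 𝐂(A), c ≠ 1 → ∀ u ∈ S ⊓ 𝐂[c], u ∉ A → ∀ x ∈ A, ∀ y ∈ A, x ≠ 1 → y ≠ 1 →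
    TT A x ⊓ 𝐂[c] ≠ ⊥ → TT A y ⊓ 𝐂[c] ≠ ⊥ → x = y

/-- `C(A) = O S` -/
def K1 (A S : Subgroup X) : Prop := 𝐂(A) ≤ core {2}ᶜ 𝐂(A) ⊔ S

/-- `C(A) = O S ⟨δ⟩` -/
structure K5 (A S : Subgroup X) (δ : X) : Prop where
  δA : δ ∈ 𝐂(A)
  δS : δ ∈ 𝐍(S)
  five : IsPGroup 5 (zpowers δ)
  pow : δ ^ 5 ∈ core {2}ᶜ 𝐂(A)
  dec : 𝐂(A) ≤ core {2}ᶜ 𝐂(A) ⊔ S ⊔ zpowers δ
  free : ∀ r : ℕ, ¬ 5 ∣ r → S ⊓ 𝐂[δ ^ r] ≤ A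

/-- `χ` is constant on the cosets `hT` for `a ∈ ⟨h⟩` -/
def Cst (T : Subgroup X) (a : X) (χ : X → ℂ) : Prop :=
  ∀ h, a ∈ zpowers h → ∀ t ∈ T, χ (h * t) = χ h

/-- the local structure forced by a character of small degree -/
structure Sm (A S : Subgroup X) : Prop where
  cen : core {2}ᶜ 𝐂(A) ≤ 𝐂(S)
  ab : ∀ a ∈ A, a ≠ 1 → ∀ μ, LinChr (TT A a) μ → μ ≠ cf1 (TT A a) →
    IsMulCommutative (𝐂(A) ⊓ inert μ : Subgroup X)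

end

/-- slice BS: local structure -/
class BS : Prop where
  main : ∀ {G : Type} [Group G] [Finite G] [IsSimpleGroup G] {A : Subgroup G},
    IH (Nat.card G) → TIc A → (∀ u ∈ 𝐂(A), u * u = 1 → u ∈ A) → ¬ L.IsSylowIn 2 A ⊤ →
    ∃ S ρ, Bs A S ρ ∧ (K1 A S ∨ ∃ δ, K5 A S δ)

/-- slice BL: small degree forces `Sm` -/
class BL : Prop where
  main : ∀ {G : Type} [Group G] [Finite G] [IsSimpleGroup G] {A S : Subgroup G} {ρ δ a : G}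
    {χ : G → ℂ}, Bs A S ρ → K5 A S δ → a ∈ A → a ≠ 1 → Chr ⊤ χ → Cst (TT A a) a χ →
    ∀ d : ℕ, χ 1 - dot (TT A a) χ (cf1 (TT A a)) = d → ¬ 5 ∣ d → d < 320 → Sm A S

/-- slice BD: the degree bound -/
class BD : Prop where
  main : ∀ {G : Type} [Group G] [Finite G] [IsSimpleGroup G] {A S : Subgroup G} {ρ a : G}
    {χ : G → ℂ}, Bs A S ρ → a ∈ A → a ≠ 1 → Irr ⊤ χ → χ ≠ cf1 ⊤ → Cst (TT A a) a χ →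
    64 ≤ (χ 1).re ∧ ∀ δ, K5 A S δ → 320 ≤ (χ 1).re

end Cfsg.Agent.Go
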