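import Cfsg.Agent.Go.E0
import Cfsg.Agent.FT.B9
import Cfsg.Agent.Be.B1

/-! End2 of notes/goldschmidt.md, case `α`: the lemma on `2`-groups. -/

set_option autoImplicit false
set_option maxHeartbeats 400000

namespace Cfsg.Agent.Go.EA

open Subgroup Cfsg.Agent.H1 Cfsg.Agent.L Cfsg.Agent.FT Cfsg.Agent.Sg
open scoped Pointwise commutatorElement

variable {G : Type*} [Group G] {S A X : Subgroup G} {ρ a b c t u v v' w x y z z' : G}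

theorem sup_cases (hv : v * v = 1) (hn : v ∈ 𝐍(A)) (hx : x ∈ A ⊔ zpowers v) : x ∈ A ∨ x * v ∈ A := by
  obtain ⟨a, ha, z, hz, rfl⟩ := (H1.mem_sup_of_le_normalizer' (zpowers_le.2 hn)).1 hx
  rcases Be.zpowers_cases hv hz with rfl | rfl
  exacts [Or.inl (by simpa using ha), Or.inr (by rwa [mul_assoc, hv, mul_one])]

theorem four_cases [Finite G] (sq : Sq A) (h4 : #|A| = 4) (ha : a ∈ A) (hb : b ∈ A) (a1 : a ≠ 1)
    (b1 : b ≠ 1) (ab : a ≠ b) (hx : x ∈ A) : x = 1 ∨ x = a ∨ x = b ∨ x = a * b := by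
  have n : b ∈ 𝐍(zpowers a) := le_norm_zpowers_of_cent (sq.cent1 ha) hb
  have := eq_of_le_of_card_le (sup_le (zpowers_le.2 ha) (zpowers_le.2 hb)) (by
    rw [B9.card_sup_zpowers Nat.prime_two n (fun e => (Be.zpowers_cases (sq a ha) e).elim b1 ab.symm)
      (by rw [pow_two, sq b hb]; exact one_mem _),
      B9.card_zpowers_prime Nat.prime_two a1 (by rw [pow_two, sq a ha]), h4])
  rcases sup_cases (sq b hb) n (this.ge hx) with e | e <;>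
    rcases Be.zpowers_cases (sq a ha) e with e | e
  · exact Or.inl e
  · exact Or.inr (Or.inl e)
  · exact Or.inr (Or.inr (Or.inl (by rw [eq_inv_of_mul_eq_one_left e, sq.inv hb])))
  · exact Or.inr (Or.inr (Or.inr (by rw [← e, mul_assoc, sq b hb, mul_one])))

theorem cent_of_comm_eq (e : ⁅w, v⁆ = ⁅z, v⁆) : w⁻¹ * z ∈ 𝐂[v] := mem_cent1.2 (by
  calc _ = w⁻¹ * ⁅z, v⁆ * v * z := by rw [commutatorElement_def]; group
    _ = _ := by rw [← e, commutatorElement_def]; group)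

/-- the `2`-local configuration -/
structure Tw (S A : Subgroup G) (ρ : G) : Prop where
  two : IsPGroup 2 S
  le : A ≤ S
  cent : S ≤ 𝐂(A)
  sq : Sq A
  card : #|A| = 4
  nS : ρ ∈ 𝐍(S)
  nA : ρ ∈ 𝐍(A)
  fpf : ∀ x ∈ A, ρ * x * ρ⁻¹ = x → x = 1
  cv : ∀ v ∈ S, v * v = 1 → v ∉ A → S ⊓ 𝐂[v] ≤ A ⊔ zpowers v

/-- involutions outside `A` -/
structure T2 (S A : Subgroup G) (v : G) : Prop where
  mem : v ∈ S
  sq : v * v = 1
  out : v ∉ A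

/-- the data needed for the transfer -/
def Goal (S A : Subgroup G) (u : G) : Prop :=
  ∃ K ≤ S, ⁅S, S⁆ ≤ K ∧ u ∉ K ∧ ∀ v, T2 S A v → v * u ∈ K

namespace Tw
variable (h : Tw S A ρ)
include h

theorem cm (ha : a ∈ A) (hx : x ∈ S) : a * x = x * a := mem_cent.1 (h.cent hx) a ha

theorem cj (ha : a ∈ A) (hx : x ∈ S) : x * a * x⁻¹ = a := by
  rw [← h.cm ha hx, mul_inv_cancel_right]

theorem cases (hv : T2 S A v) (hx : x ∈ S) (e : x ∈ 𝐂[v]) : x ∈ A ∨ x * v ∈ A :=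
  sup_cases hv.sq (cent_le_norm A (h.cent hv.mem)) (h.cv v hv.mem hv.sq hv.out ⟨hx, e⟩)

theorem cm_mul (hx : x ∈ S) (hv : v ∈ S) (e : ⁅y, v⁆ ∈ A) : ⁅x * y, v⁆ = ⁅x, v⁆ * ⁅y, v⁆ := by
  rw [← h.cm e (B9.commEl_mem hx hv), ← h.cj e hx]
  simp only [commutatorElement_def]; group

theorem cm_mul' (hx : x ∈ S) (hv : v ∈ S) (e : ⁅v, y⁆ ∈ A) : ⁅v, x * y⁆ = ⁅v, x⁆ * ⁅v, y⁆ := by
  rw [← h.cj e hx]
  simp only [commutatorElement_def]; group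

theorem cm_A (ha : a ∈ A) (hv : v ∈ S) : ⁅a, v⁆ = 1 := B9.commEl_eq_one_iff.2 (h.cm ha hv)

theorem cm_left (hx : x ∈ S) (hv : v ∈ S) (e : y * x⁻¹ ∈ A) : ⁅y, v⁆ = ⁅x, v⁆ := by
  calc _ = y * x⁻¹ * (x * v * x⁻¹) * (y * x⁻¹)⁻¹ * v⁻¹ := by rw [commutatorElement_def]; group
    _ = _ := by rw [h.cm e (mul_mem (mul_mem hx hv) (inv_mem hx)), mul_inv_cancel_right]; rfl

theorem ab (hX : ρ ∈ 𝐍(X)) (h1 : X ≤ S) (h2 : X ≤ A ⊔ zpowers x ⊔ zpowers y) (hx : x ∈ S)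
    (hy : y ∈ S) (e : ⁅x, y⁆ ∈ A) : X ≤ 𝐂(X) := by
  have n : S ≤ 𝐍(zpowers ⁅x, y⁆) := le_norm_zpowers_of_cent (h.cent.trans (cent_le_cent1 e))
  have k : ∀ {s a}, s ∈ S → a ∈ A → ⁅s, a⁆ ∈ zpowers ⁅x, y⁆ := fun hs ha => by
    rw [B9.commEl_eq_one_iff.2 (h.cm ha hs).symm]; exact one_mem _
  have c : ⁅X, X⁆ ≤ zpowers ⁅x, y⁆ := (commutator_mono h2 h2).trans (B9.comm_sup_zpowers_le
    ((sup_le h.le (zpowers_le.2 hx)).trans n) (n hy) (B9.comm_sup_zpowers_le (h.le.trans n) (n hx)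
      (commutator_le.2 fun _ h1 _ h2 => k (h.le h1) h2) fun _ => k hx) fun s hs =>
    B9.comm_mem_of_le (B9.comm_sup_right_le (h.le.trans n) (zpowers_le.2 (n hx))
      (commutator_le.2 fun _ h1 _ h2 => k (zpowers_le.2 hy h1) h2) (B9.comm_zpowers_zpowers_le (n hy)
        (n hx) (B9.comm_mem_symm (mem_zpowers _)))) (mem_zpowers y) hs)
  refine comm_eq_bot_iff.1 (eq_bot_iff.2 fun z hz => by_contra fun z1 => z1 ?_)
  have e1 := (Be.zpowers_cases (h.sq _ e) (c hz)).resolve_left z1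
  refine h.fpf z (e1 ▸ e) (((Be.zpowers_cases (h.sq _ e) (c (conj_mem_of_mem_normalizer
    (norm_le_norm_der1 X hX) hz))).resolve_left (mt conj_eq_one_iff.1 z1)).trans e1.symm)

variable [Finite G]

theorem span (hv : T2 S A v) (hx : x ∈ S) (hy : y ∈ S) (x0 : ⁅x, v⁆ ∈ A) (y0 : ⁅y, v⁆ ∈ A)
    (x1 : ⁅x, v⁆ ≠ 1) (y1 : ⁅y, v⁆ ≠ 1) (xy : ⁅x, v⁆ ≠ ⁅y, v⁆) (hz : z ∈ S) (z0 : ⁅z, v⁆ ∈ A) :
    ∃ w, (w = 1 ∨ w = x ∨ w = y ∨ w = x * y) ∧ (w⁻¹ * z ∈ A ∨ w⁻¹ * z * v ∈ A) := by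
  have k : ∀ w ∈ S, ⁅z, v⁆ = ⁅w, v⁆ → w⁻¹ * z ∈ A ∨ w⁻¹ * z * v ∈ A := fun w hw e =>
    h.cases hv (mul_mem (inv_mem hw) hz) (cent_of_comm_eq e.symm)
  rcases four_cases h.sq h.card x0 y0 x1 y1 xy z0 with e | e | e | e
  · exact ⟨1, by simp, k 1 S.one_mem (by simpa using e)⟩
  · exact ⟨x, by simp, k x hx e⟩
  · exact ⟨y, by simp, k y hy e⟩
  · exact ⟨x * y, by simp, k _ (mul_mem hx hy) (by rw [h.cm_mul hx hv.mem y0, e])⟩

theorem fin3 (hu : T2 S A u) (hS : ⁅S, S⁆ ≤ A) (hx : x ∈ S) (hy : y ∈ S) (x1 : ⁅x, u⁆ ≠ 1)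
    (y1 : ⁅y, u⁆ ≠ 1) (xy : ⁅x, u⁆ ≠ ⁅y, u⁆) (e : ⁅x, y⁆ = 1) : Goal S A u := by
  have c := B9.commEl_eq_one_iff.1 e
  have AK : A ≤ S ⊓ 𝐂[x] := le_inf h.le (le_cent1_iff.2 (h.cent hx))
  have no : ∀ t, T2 S A t → t ∉ S ⊓ 𝐂[x] := fun t ht e => by
    have e1 := (h.cases ht hx (mem_cent1_comm.1 e.2)).resolve_left fun k => x1 (h.cm_A k hu.mem)
    have e2 := (h.cases ht hy (mem_cent1_comm.1 (((𝐂[y]).mul_mem_cancel_left (mem_cent1.2 c)).1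
      (le_cent1_iff.2 (h.cent hy) e1)))).resolve_left fun k => y1 (h.cm_A k hu.mem)
    exact xy (h.cm_left hy hu.mem (by simpa [mul_assoc] using mul_mem e1 (inv_mem e2)))
  refine ⟨_, inf_le_left, hS.trans AK, no u hu, fun v hv => ?_⟩
  have m := fun {x} (hx : x ∈ S) => hS (commutator_mem_commutator hx hu.mem)
  obtain ⟨w, hw, k⟩ := h.span hu hx hy (m hx) (m hy) x1 y1 xy hv.mem (m hv.mem)
  have wK : w ∈ S ⊓ 𝐂[x] := by
    rcases hw with rfl | rfl | rfl | rfl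
    exacts [one_mem _, ⟨hx, self_mem_cent1 _⟩, ⟨hy, mem_cent1.2 c.symm⟩,
      mul_mem ⟨hx, self_mem_cent1 _⟩ ⟨hy, mem_cent1.2 c.symm⟩]
  rcases k with k | k
  · exact absurd (by simpa using mul_mem wK (AK k)) (no v hv)
  · simpa [mul_assoc] using mul_mem wK (AK k)

theorem case1 (hu : T2 S A u) (ht : T2 S A t) (h0 : ∀ s ∈ S, ⁅s, t⁆ ∈ A) : Goal S A u := by
  have s2 : ∀ x ∈ S, x * x ∈ A := fun x hx => by
    refine (h.cases ht (mul_mem hx hx) (mem_cent1.2 (B9.commEl_eq_one_iff.1 (by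
      rw [h.cm_mul hx ht.mem (h0 x hx), h.sq _ (h0 x hx)])))).elim id fun e => by_contra fun e' => ?_
    have q : x * x * (x * x) = 1 := by
      have : ∀ α ∈ A, α * t * (α * t) = 1 := fun α hα => by
        rw [mul_assoc, ← mul_assoc t, ← h.cm hα ht.mem, mul_assoc α t, ht.sq, mul_one, h.sq _ hα]
      have := this _ e
      rwa [mul_assoc _ t t, ht.sq, mul_one] at this
    rcases h.cases ⟨mul_mem hx hx, q, e'⟩ hx (mem_cent1.2 (mul_assoc _ _ _).symm) with k | k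
    · exact e' (mul_mem k k)
    · have := h.sq _ k
      rw [show x * (x * x) * (x * (x * x)) = x * x * (x * x) * (x * x) by group, q, one_mul] at this
      exact e' (this ▸ one_mem _)
  have hS : ⁅S, S⁆ ≤ A := commutator_le.2 fun x hx y hy => by
    have := mul_mem (mul_mem (s2 _ (mul_mem hx hy)) (inv_mem (s2 x hx))) (inv_mem (s2 y hy))
    rw [← h.cj (s2 x hx) (inv_mem hy)] at this
    convert this using 1
    rw [commutatorElement_def]; group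
  have m := fun {x y} (hx : x ∈ S) (hy : y ∈ S) => hS (commutator_mem_commutator hx hy)
  have nu := cent_le_norm A (h.cent hu.mem)
  by_cases e1 : S ≤ A ⊔ zpowers u
  · exact ⟨A, h.le, hS, hu.out, fun v hv => (sup_cases hu.sq nu (e1 hv.mem)).resolve_left hv.out⟩
  obtain ⟨x, hx, x0⟩ := SetLike.not_le_iff_exists.1 e1
  have cu := h.cv u hu.mem hu.sq hu.out
  by_cases e2 : S ≤ A ⊔ zpowers u ⊔ zpowers x
  · exact absurd (cu ⟨hx, cent_le_cent1 hu.mem (h.ab h.nS le_rfl e2 hu.mem hx (m hu.mem hx) hx)⟩) x0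
  obtain ⟨y, hy, y0⟩ := SetLike.not_le_iff_exists.1 e2
  have x1 : ⁅x, u⁆ ≠ 1 := fun e => x0 (cu ⟨hx, mem_cent1.2 (B9.commEl_eq_one_iff.1 e)⟩)
  have y1 : ⁅y, u⁆ ≠ 1 := fun e =>
    y0 (mem_sup_left (cu ⟨hy, mem_cent1.2 (B9.commEl_eq_one_iff.1 e)⟩))
  have xy : ⁅x, u⁆ ≠ ⁅y, u⁆ := fun e => y0 (by
    simpa using mul_mem (mem_sup_right (mem_zpowers x))
      (mem_sup_left (cu ⟨mul_mem (S.inv_mem hx) hy, cent_of_comm_eq e⟩)))
  have ad : ∀ {x}, x ∈ S → ⁅x * u, u⁆ = ⁅x, u⁆ := fun hx => by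
    rw [h.cm_mul hx hu.mem (m hu.mem hu.mem), commutatorElement_self, mul_one]
  have uy : ⁅u, y⁆ = ⁅y, u⁆ := by rw [← commutatorElement_inv, h.sq.inv (m hy hu.mem)]
  have xu := mul_mem hx hu.mem
  have yu := mul_mem hy hu.mem
  rcases four_cases h.sq h.card (m hx hu.mem) (m hy hu.mem) x1 y1 xy (m hx hy) with e | e | e | e
  · exact h.fin3 hu hS hx hy x1 y1 xy e
  · exact h.fin3 hu hS hx yu x1 (ad hy ▸ y1) (ad hy ▸ xy)
      (by rw [h.cm_mul' hy hx (m hx hu.mem), e, h.sq _ (m hx hu.mem)])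
  · exact h.fin3 hu hS xu hy (ad hx ▸ x1) y1 (ad hx ▸ xy)
      (by rw [h.cm_mul hx hy (m hu.mem hy), e, uy, h.sq _ (m hy hu.mem)])
  · exact h.fin3 hu hS xu yu (ad hx ▸ x1) (ad hy ▸ y1) (ad hx ▸ ad hy ▸ xy) (by
      rw [h.cm_mul hx yu (m hu.mem yu), h.cm_mul' hy hx (m hx hu.mem), e,
        h.cm_mul' hy hu.mem (m hu.mem hu.mem), commutatorElement_self, mul_one, uy, mul_assoc,
        h.sq _ (mul_mem (m hx hu.mem) (m hy hu.mem))])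

omit [Finite G] in
/-- the preimage of `Ω₁(Z(S/A))` -/
def W : Subgroup G where
  carrier := {x | x ∈ S ∧ (∀ s ∈ S, ⁅x, s⁆ ∈ A) ∧ x * x ∈ A}
  one_mem' := ⟨S.one_mem, fun s _ => by simp [A.one_mem], by simp [A.one_mem]⟩
  mul_mem' := fun {x y} hx hy => ⟨mul_mem hx.1 hy.1, fun s hs => by
    rw [h.cm_mul hx.1 hs (hy.2.1 s hs)]; exact mul_mem (hx.2.1 s hs) (hy.2.1 s hs), by
    have := mul_mem (mul_mem hx.2.2 (inv_mem (hy.2.1 _ (inv_mem hx.1)))) hy.2.2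
    convert this using 1
    rw [commutatorElement_def]; group⟩
  inv_mem' := fun {x} hx => ⟨inv_mem hx.1, fun s hs => by
    have := inv_mem (hx.2.1 s hs)
    rw [← h.cj this (inv_mem hx.1)] at this
    convert this using 1
    rw [commutatorElement_def]; group, by simpa using inv_mem hx.2.2⟩

theorem exists_W (hu : T2 S A u) : ∃ w ∈ h.W, w ∉ A := by
  have n := le_norm_of_le_cent h.cent
  have p := pgroup_mim h.two (coset A)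
  obtain ⟨_, ⟨⟨x, hx, rfl⟩, e⟩, x1⟩ := exists_mem_ne_one (inf_cent_ne_bot_of_pgroup Nat.prime_two p p
    le_normalizer fun e => hu.out ((quo_eq_bot_iff n).1 e hu.mem))
  have := (quo_le_cent_iff (zpowers_le.2 x.2) n).1 (by rwa [mim_zpowers, zpowers_le])
  obtain ⟨k, k1, k2⟩ := B9.exists_pow_notMem_pow_mem (B9.pgroup_pow_eq_one h.two hx)
    (mt coset_eq_one.2 x1)
  exact ⟨_, ⟨pow_mem hx _, fun s hs => B9.comm_mem_of_le this (pow_mem (mem_zpowers _) _) hs,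
    pow_two ((x : G) ^ 2 ^ k) ▸ k2⟩, k1⟩

theorem cjW (hw : w ∈ h.W) : ρ * w * ρ⁻¹ ∈ h.W :=
  ⟨conj_mem_of_mem_normalizer h.nS hw.1, fun s hs => by
    have := conj_mem_of_mem_normalizer h.nA (hw.2.1 _ (conj_mem_of_mem_normalizer' h.nS hs))
    convert this using 1
    simp only [commutatorElement_def]; group,
    by rw [conj_mul]; exact conj_mem_of_mem_normalizer h.nA hw.2.2⟩

omit [Finite G] in
theorem cjA : ρ * x * ρ⁻¹ ∈ A ↔ x ∈ A := by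
  rw [← conj_mem_conj_iff (g := ρ) (x := x), conj_of_mem_norm h.nA]

omit [Finite G] in
theorem cjT (hv : T2 S A v) : T2 S A (ρ * v * ρ⁻¹) :=
  ⟨conj_mem_of_mem_normalizer h.nS hv.mem, by rw [conj_mul, hv.sq]; group, mt h.cjA.1 hv.out⟩

variable (h0 : ∀ t, T2 S A t → t ∉ h.W)
include h0

omit [Finite G] in
theorem cW (hv : T2 S A v) (hw : w ∈ h.W) (e : w ∈ A ∨ w * v ∈ A) : w ∈ A :=
  e.resolve_right fun e => h0 v hv ((h.W.mul_mem_cancel_left hw).1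
    ⟨h.le e, fun s hs => h.cm_A e hs ▸ one_mem _, mul_mem e e⟩)

omit [Finite G] in
theorem move (hw : w ∈ h.W) (w1 : w ∉ A) : w⁻¹ * (ρ * w * ρ⁻¹) ∉ A := fun e =>
  h0 w ⟨hw.1, h.fpf _ hw.2.2 (by
    calc _ = w * (w⁻¹ * (ρ * w * ρ⁻¹) * w) * (w⁻¹ * (ρ * w * ρ⁻¹)) := by group
      _ = w * w * (w⁻¹ * (ρ * w * ρ⁻¹) * (w⁻¹ * (ρ * w * ρ⁻¹))) := by rw [h.cm e hw.1]; group
      _ = _ := by rw [h.sq _ e, mul_one]), w1⟩ hw

theorem spanW (hv : T2 S A v) (hx : x ∈ h.W) (hy : y ∈ h.W) (x1 : x ∉ A) (y1 : y ∉ A)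
    (xy : x⁻¹ * y ∉ A) (hz : z ∈ S) (z0 : ⁅z, v⁆ ∈ A) :
    ∃ w, (w = 1 ∨ w = x ∨ w = y ∨ w = x * y) ∧ (w⁻¹ * z ∈ A ∨ w⁻¹ * z * v ∈ A) :=
  have k : ∀ {w}, w ∈ h.W → w ∈ 𝐂[v] → w ∈ A := fun hw e => h.cW h0 hv hw (h.cases hv hw.1 e)
  h.span hv hx.1 hy.1 (hx.2.1 v hv.mem) (hy.2.1 v hv.mem)
    (fun e => x1 (k hx (mem_cent1.2 (B9.commEl_eq_one_iff.1 e))))
    (fun e => y1 (k hy (mem_cent1.2 (B9.commEl_eq_one_iff.1 e))))
    (fun e => xy (k (mul_mem (inv_mem hx) hy) (cent_of_comm_eq e))) hz z0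

theorem spanW' (hv : T2 S A v) (hx : x ∈ h.W) (hy : y ∈ h.W) (x1 : x ∉ A) (y1 : y ∉ A)
    (xy : x⁻¹ * y ∉ A) (hz : z ∈ h.W) : ∃ w, (w = 1 ∨ w = x ∨ w = y ∨ w = x * y) ∧ w⁻¹ * z ∈ A := by
  obtain ⟨w, hw, e⟩ := h.spanW h0 hv hx hy x1 y1 xy hz.1 (hz.2.1 v hv.mem)
  refine ⟨w, hw, h.cW h0 hv (mul_mem (inv_mem ?_) hz) e⟩
  rcases hw with rfl | rfl | rfl | rfl
  exacts [one_mem _, hx, hy, mul_mem hx hy]

theorem abW (hv : T2 S A v) : h.W ≤ 𝐂(h.W) := by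
  obtain ⟨x, hx, x1⟩ := h.exists_W hv
  have hy := h.cjW hx
  refine h.ab (H1.mem_normalizer_of_conj_mem fun _ => h.cjW) (fun _ e => e.1) (fun z hz => ?_) hx.1
    hy.1 (hx.2.1 _ hy.1)
  obtain ⟨w, hw, e⟩ := h.spanW' h0 hv hx hy x1 (mt h.cjA.1 x1) (h.move h0 hx x1) hz
  have m1 : x ∈ A ⊔ zpowers x ⊔ zpowers (ρ * x * ρ⁻¹) := mem_sup_left (mem_sup_right (mem_zpowers x))
  have m2 := mem_sup_right (S := A ⊔ zpowers x) (mem_zpowers (ρ * x * ρ⁻¹))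
  refine (Subgroup.mul_mem_cancel_left _ (inv_mem ?_)).1 (mem_sup_left (mem_sup_left e))
  rcases hw with rfl | rfl | rfl | rfl
  exacts [one_mem _, m1, m2, mul_mem m1 m2]

theorem invW (hv : T2 S A v) (hx : x ∈ h.W) (hy : y ∈ h.W) (x1 : x ∉ A) (y1 : y ∉ A)
    (xy : x⁻¹ * y ∉ A) (e1 : v * x * v⁻¹ = x⁻¹) (e2 : v * y * v⁻¹ = y⁻¹) (hz : z ∈ h.W) :
    v * z * v⁻¹ = z⁻¹ := by
  obtain ⟨w, hw, e⟩ := h.spanW' h0 hv hx hy x1 y1 xy hz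
  have k : w ∈ h.W ∧ v * w * v⁻¹ = w⁻¹ := by
    rcases hw with rfl | rfl | rfl | rfl
    · exact ⟨one_mem _, by simp⟩
    · exact ⟨hx, e1⟩
    · exact ⟨hy, e2⟩
    · exact ⟨mul_mem hx hy, by
        rw [← conj_mul, e1, e2, ← mul_inv_rev, mem_cent.1 (h.abW h0 hv hx) y hy]⟩
  obtain ⟨α, hα, rfl⟩ : ∃ α ∈ A, w * α = z := ⟨_, e, by group⟩
  rw [← conj_mul, k.2, h.cj hα hv.mem, mul_inv_rev, h.sq.inv hα, h.cm hα (inv_mem k.1.1)]

theorem differ (hv : T2 S A v) (hv' : T2 S A v') (e : v * v' ∉ 𝐂(h.W)) :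
    ∃ z ∈ h.W, z ∉ A ∧ v * z * v⁻¹ = z⁻¹ ∧ v' * z * v'⁻¹ = z⁻¹ := by
  have AW : A ≤ h.W := fun a e => ⟨h.le e, fun s hs => h.cm_A e hs ▸ one_mem _, mul_mem e e⟩
  obtain ⟨k, k1, k2⟩ := B9.exists_pow_notMem_pow_mem (B9.pgroup_pow_eq_one h.two
    (mul_mem hv.mem hv'.mem)) fun k => e (h.abW h0 hv (AW k))
  have i := inv_eq_of_mul_eq_one_right hv.sq
  have i' := inv_eq_of_mul_eq_one_right hv'.sq
  have e1 : v * (v * v') ^ 2 ^ k * v⁻¹ = ((v * v') ^ 2 ^ k)⁻¹ := by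
    rw [← conj_pow, ← inv_pow, mul_inv_rev, ← mul_assoc, hv.sq, one_mul, i']
  have e2 : v' * (v * v') ^ 2 ^ k * v'⁻¹ = ((v * v') ^ 2 ^ k)⁻¹ := by
    rw [← conj_pow, ← inv_pow, mul_inv_rev, ← mul_assoc, mul_inv_cancel_right, i, i']
  have zS := pow_mem (mul_mem hv.mem hv'.mem) (2 ^ k)
  generalize (v * v') ^ 2 ^ k = z at *
  obtain ⟨x, hx, x1⟩ := h.exists_W hv
  have hy := h.cjW hx
  have key : ∀ {t}, T2 S A t → t * z * t⁻¹ = z⁻¹ → z ∈ h.W ∨ z * t ∈ h.W := fun {t} ht e => by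
    obtain ⟨w, hw, k⟩ := h.spanW h0 ht hx hy x1 (mt h.cjA.1 x1) (h.move h0 hx x1) zS (by
      rwa [show ⁅z, t⁆ = z * (t * z * t⁻¹)⁻¹ by rw [commutatorElement_def]; group, e, inv_inv,
        ← pow_two])
    have : w ∈ h.W := by
      rcases hw with rfl | rfl | rfl | rfl
      exacts [one_mem _, hx, hy, mul_mem hx hy]
    exact k.imp (fun k => by simpa using mul_mem this (AW k))
      fun k => by simpa [mul_assoc] using mul_mem this (AW k)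
  refine ⟨z, by_contra fun n => e (h.abW h0 hv ?_), k1, e1, e2⟩
  simpa [i, mul_assoc] using mul_mem (inv_mem ((key hv e1).resolve_left n))
    ((key hv' e2).resolve_left n)

theorem alike (hv : T2 S A v) (hv' : T2 S A v') : v * v' ∈ 𝐂(h.W) := by
  by_contra e
  obtain ⟨z, hz, z1, e1, e2⟩ := h.differ h0 hv hv' e
  have key : ∀ {t}, T2 S A t → t * z * t⁻¹ = z⁻¹ → ∀ w ∈ h.W, t * w * t⁻¹ = w⁻¹ := fun {t} ht e => by
    have ht' := h.cjT ht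
    have hy := h.cjW hz
    have y1 := mt h.cjA.1 z1
    have m := h.move h0 hz z1
    have e' : ρ * t * ρ⁻¹ * (ρ * z * ρ⁻¹) * (ρ * t * ρ⁻¹)⁻¹ = (ρ * z * ρ⁻¹)⁻¹ := by
      rw [conj_inv (a := z), ← e]; group
    by_cases c : t * (ρ * t * ρ⁻¹) ∈ 𝐂(h.W)
    · refine fun w => h.invW h0 ht hz hy z1 y1 m e ?_
      have c' := mem_cent.1 c _ hy
      generalize ρ * t * ρ⁻¹ = t', ρ * z * ρ⁻¹ = y at e' c' ⊢
      calc _ = (t * y⁻¹ * t⁻¹)⁻¹ := by group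
        _ = (t * t' * y * (t * t')⁻¹)⁻¹ := by rw [← e']; group
        _ = _ := by rw [← c', mul_inv_cancel_right]
    obtain ⟨x, hx, x1, e3, e4⟩ := h.differ h0 ht ht' c
    by_cases c' : z⁻¹ * x ∈ A
    · intro w hw
      have := h.invW h0 ht' hx hy x1 y1 (fun k => m (by simpa [mul_assoc] using mul_mem c' k)) e4 e'
        (h.cjW hw)
      rw [conj_inv, conj_inv, conj_mul, conj_mul] at this
      simpa using this
    · exact fun w => h.invW h0 ht hz hx z1 x1 c' e e3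
  refine e (mem_cent.2 fun w hw => ?_)
  calc _ = (v * w * v⁻¹)⁻¹ * (v * v') := by rw [key hv e1 w hw, inv_inv]
    _ = v * w⁻¹ * v' := by group
    _ = _ := by rw [← key hv' e2 w hw]; group

theorem case2 (hu : T2 S A u) : Goal S A u := by
  have c : ⁅h.W, S⁆ ≤ 𝐂(S) := (commutator_le.2 fun w (hw : w ∈ h.W) => hw.2.1).trans (le_cent_symm h.cent)
  refine ⟨S ⊓ 𝐂(h.W), inf_le_left, le_inf (der1_le S) (comm_eq_bot_iff.1 (three_subgroups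
    (comm_eq_bot_iff.2 (B9.comm_le_symm c)) (comm_eq_bot_iff.2 c))), fun e => ?_,
    fun v hv => ⟨mul_mem hv.mem hu.mem, h.alike h0 hv hu⟩⟩
  obtain ⟨x, hx, x1⟩ := h.exists_W hu
  exact x1 (h.cW h0 hu hx (h.cases hu hx.1 (le_cent1_iff.2 e.2 hx)))

omit h0 in
theorem goal (hu : T2 S A u) : Goal S A u := by
  by_cases e : ∀ t, T2 S A t → t ∉ h.W
  · exact h.case2 e hu
  push Not at e
  obtain ⟨t, ht, e⟩ := e
  exact h.case1 hu ht fun s hs => B9.comm_mem_symm (e.2.1 s hs)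

end Tw

end Cfsg.Agent.Go.EA
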