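import Cfsg.Agent.H6.U64

/-! Finite checks in the group `U64`. -/

set_option autoImplicit false

namespace Cfsg.Agent.Go

open Cfsg.Agent.H6

namespace E

theorem u_card_cent : ∀ x : U64, x * x ≠ 1 → Fintype.card {y : U64 // y * x = x * y} = 16 := by
  decide +kernel

theorem u_conj_mul : ∀ x z : U64, x * x ≠ 1 → z * z = 1 → ∃ s, s * x * s⁻¹ = x * z := by
  decide +kernel

theorem u_exists_sq : ∀ z : U64, z * z = 1 → ∃ u, u * u = z := by
  decide +kernel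

theorem u_cent_comm : ∀ x : U64, x * x ≠ 1 → ∀ y, y * x = x * y → ∀ z, z * x = x * z →
    y * z = z * y := by
  decide +kernel

theorem u_cent_cases : ∀ x : U64, x * x ≠ 1 → ∀ y, y * x = x * y → y * y ≠ 1 →
    x * y * (x * y) ≠ 1 → ∀ z, z * x = x * z → z * z = 1 ∨ z * x * (z * x) = 1 ∨
      z * y * (z * y) = 1 ∨ z * (x * y) * (z * (x * y)) = 1 := by
  decide +kernel

theorem u_four : ∃ f : Fin 4 → U64, ∀ i j, i ≠ j → f i * f j ≠ f j * f i :=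
  ⟨![⟨1, 0, 0, 0, 0, 0⟩, ⟨0, 0, 1, 0, 0, 0⟩, ⟨1, 0, 1, 0, 0, 0⟩, ⟨1, 0, 0, 1, 0, 0⟩], by
    decide +kernel⟩

end E

end Cfsg.Agent.Go
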